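import Mathlib
import Cfsg.Agent.Lib.H27.AB1
import Cfsg.Agent.Lib.H27.AB4
import Cfsg.Agent.Lib.H58.AbSyl
import Cfsg.Agent.Lib.H58.Rel
import Cfsg.Agent.Lib.H98.DicksonIdx
import Cfsg.Agent.Lib.H5.ZStar
import Cfsg.Agent.Lib.H59.Fus1

/-!
# `PSL(2,q)` inside a group with abelian Sylow 2-subgroups
-/

set_option autoImplicit false
set_option linter.unusedVariables false
set_option linter.unusedSectionVars false
set_option linter.style.haveILetI false

namespace H27.AB

open Subgroup Cfsg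

/-- an abelian Sylow 2-subgroup of `H` lies in `L` if `H' ≤ L`, `C_H(L) = 1`, `O(L) = 1` -/
theorem sylow_le_of_normal {H : Type*} [Group H] [Finite H] (L : Subgroup H) [hL : L.Normal]
    (hcore : ∀ D : Subgroup H, D.Normal → D ≤ L → Odd (Nat.card D) → D = ⊥)
    (hC : ∀ x : H, (∀ l ∈ L, x * l = l * x) → x = 1) (hcom : _root_.commutator H ≤ L) (P : Sylow 2 H)
    (hP : ∀ a ∈ (P : Subgroup H), ∀ b ∈ (P : Subgroup H), a * b = b * a) : (P : Subgroup H) ≤ L := by
  haveI : Fact (Nat.Prime 2) := ⟨Nat.prime_two⟩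
  have hPc : IsMulCommutative (P : Subgroup H) := ⟨⟨fun a b => Subtype.ext (hP a a.2 b b.2)⟩⟩
  have hcop : (Nat.card (pPrimeCore 2 H)).Coprime 2 := H1.Cores.coprime_card_pPrimeCore 2
  have hOn : (pPrimeCore 2 H).Normal := H1.Cores.pPrimeCore_normal 2
  have hO : pPrimeCore 2 H = ⊥ := by
    have h1 : pPrimeCore 2 H ⊓ L = ⊥ := by
      apply hcore _ inferInstance inf_le_right
      exact Nat.coprime_two_right.1 (Nat.Coprime.coprime_dvd_left (card_dvd_of_le inf_le_left) hcop)
    rw [Subgroup.eq_bot_iff_forall]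
    intro x hx
    apply hC
    intro l hl
    have h2 : x * l * x⁻¹ * l⁻¹ ∈ pPrimeCore 2 H ⊓ L := by
      refine mem_inf.2 ⟨?_, mul_mem (hL.conj_mem l hl x) (inv_mem hl)⟩
      have h3 := hOn.conj_mem x⁻¹ (inv_mem hx) l
      have h4 : x * l * x⁻¹ * l⁻¹ = x * (l * x⁻¹ * l⁻¹) := by group
      rw [h4]
      exact mul_mem hx h3
    rw [h1, mem_bot] at h2
    rw [mul_inv_eq_one, mul_inv_eq_iff_eq_mul] at h2
    exact h2
  obtain ⟨h1, h2⟩ := H2.AbSylow.abelian_sylow_decomp P hPc
  have h3 : (P : Subgroup H) ⊓ centralizer (normalizer ((P : Subgroup H) : Set H) : Set H) = ⊥ := by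
    by_contra hne
    have hp : IsPGroup 2 ((P : Subgroup H) ⊓ centralizer (normalizer ((P : Subgroup H) : Set H) : Set H) : Subgroup H) :=
      P.2.to_le inf_le_left
    have h4 : 2 ∣ Nat.card ((P : Subgroup H) ⊓ centralizer (normalizer ((P : Subgroup H) : Set H) : Set H) : Subgroup H) := by
      obtain ⟨k, hk⟩ := IsPGroup.iff_card.mp hp
      rw [hk]
      apply dvd_pow_self
      rintro rfl
      rw [pow_zero, Subgroup.card_eq_one] at hk
      exact hne hk
    obtain ⟨z, hz, hzo⟩ := H51.SPE.exists_order_p h4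
    obtain ⟨hzP, hzc⟩ := mem_inf.1 hz
    have hiso : ∀ g : H, g * z * g⁻¹ ∈ P → g * z * g⁻¹ = z := by
      intro g hg
      obtain ⟨n, hn, hne⟩ := Sylow.conj_eq_normalizer_conj_of_mem P z g⁻¹ hzP (by rw [inv_inv]; exact hg)
      rw [inv_inv] at hne
      have h5 : n * z = z * n := mem_centralizer_iff.1 hzc n hn
      rw [hne, mul_assoc, ← h5]; group
    have h6 := H5.ZStar.sylow_form P z hzo hiso
    have h7 : z = 1 := by
      apply hC
      intro l _
      have h8 := h6 l
      rw [hO, mem_bot, mul_inv_eq_one, mul_inv_eq_iff_eq_mul] at h8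
      exact h8
    rw [h7, orderOf_one] at hzo
    omega
  rw [h3, bot_sup_eq] at h2
  rw [← h2]
  refine le_trans ?_ hcom
  rw [_root_.commutator_def]
  exact Subgroup.commutator_mono le_top le_top

section psl

variable {F : Type*} [Field F] [Fintype F]

open Matrix

theorem two_ne_zero' (hF : Odd (Fintype.card F)) : (2 : F) ≠ 0 := H58.SL2Prod.two_ne_zero_of_odd hF

theorem psl_core (hF : Odd (Fintype.card F)) (D : Subgroup (ProjectiveSpecialLinearGroup (Fin 2) F)) (hD : D.Normal)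
    (ho : Odd (Nat.card D)) : D = ⊥ := by
  have h2 := two_ne_zero' hF
  obtain ⟨a, w, ha, hw, ha1, hw1, haw, hcom, -⟩ := H58.PSL2V4.exists_v4 (F := F) h2
  by_cases h3 : 3 < Nat.card F
  · haveI := Matrix.ProjectiveSpecialLinearGroup.rank_two_simple h3
    rcases hD.eq_bot_or_eq_top with h | h
    · exact h
    · exfalso
      rw [h, Subgroup.card_top] at ho
      have h4 : orderOf a = 2 := orderOf_eq_prime (by rw [pow_two]; exact ha) ha1
      have h5 : 2 ∣ Nat.card (ProjectiveSpecialLinearGroup (Fin 2) F) := by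
        have h6 := _root_.orderOf_dvd_natCard a
        rwa [h4] at h6
      exact (Nat.not_even_iff_odd.2 ho) (even_iff_two_dvd.2 h5)
  · have hF3 : Nat.card F = 3 := by
      rw [Nat.card_eq_fintype_card] at h3 ⊢
      have h4 : 1 < Fintype.card F := Fintype.one_lt_card
      obtain ⟨k, hk⟩ := hF
      omega
    have h12 : Nat.card (ProjectiveSpecialLinearGroup (Fin 2) F) = 12 := by
      rw [H98.DicksonIdx.card_G, hF3]
      norm_num
    have h13 : Nat.card D ∣ 12 := by rw [← h12]; exact Subgroup.card_subgroup_dvd_card D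
    have h14 : Nat.card D ∣ 3 := by
      have : Nat.card D ∣ 4 * 3 := h13
      refine Nat.Coprime.dvd_of_dvd_mul_left ?_ this
      have : Nat.Coprime (Nat.card D) (2 ^ 2) := Nat.Coprime.pow_right 2 (Nat.coprime_two_right.2 ho)
      exact this
    rcases (Nat.dvd_prime Nat.prime_three).1 h14 with h | h
    · exact Subgroup.card_eq_one.1 h
    · exfalso
      haveI : Fact (Nat.Prime 3) := ⟨Nat.prime_three⟩
      obtain ⟨x, hx⟩ := exists_prime_orderOf_dvd_card' (G := D) 3 (by rw [h])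
      have hx' : orderOf (x : ProjectiveSpecialLinearGroup (Fin 2) F) = 3 := by rw [Subgroup.orderOf_coe]; exact hx
      have hx1 : (x : ProjectiveSpecialLinearGroup (Fin 2) F) ≠ 1 := by
        intro h5; rw [h5, orderOf_one] at hx'; omega
      have hxi : ∀ y ∈ D, y ≠ 1 → y = x ∨ y = (x : ProjectiveSpecialLinearGroup (Fin 2) F)⁻¹ := by
        intro y hy hy1
        have h6 : (⟨y, hy⟩ : D) ∈ zpowers x := mem_zpowers_of_prime_card (p := 3) h (by
          intro h7
          rw [h7, orderOf_one] at hx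
          omega)
        obtain ⟨k, hk3, hk⟩ : ∃ k : ℕ, k < 3 ∧ x ^ k = (⟨y, hy⟩ : D) := by
          classical
          have h7 := (mem_zpowers_iff_mem_range_orderOf).1 h6
          rw [Finset.mem_image] at h7
          obtain ⟨k, hk1, hk2⟩ := h7
          rw [Finset.mem_range, hx] at hk1
          exact ⟨k, hk1, hk2⟩
        have hk' : (x : ProjectiveSpecialLinearGroup (Fin 2) F) ^ k = y := congrArg Subtype.val hk
        interval_cases k
        · exact absurd hk'.symm (by simpa using hy1)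
        · left; rw [← hk', pow_one]
        · right
          rw [← hk', eq_inv_iff_mul_eq_one, ← pow_succ]
          have := pow_orderOf_eq_one (x : ProjectiveSpecialLinearGroup (Fin 2) F)
          rwa [hx'] at this
      have hcj : ∀ g : ProjectiveSpecialLinearGroup (Fin 2) F, g * x * g⁻¹ = x ∨
          g * x * g⁻¹ = (x : ProjectiveSpecialLinearGroup (Fin 2) F)⁻¹ := by
        intro g
        apply hxi _ (hD.conj_mem x x.2 g)
        intro h7
        apply hx1
        have : (x : ProjectiveSpecialLinearGroup (Fin 2) F) = g⁻¹ * (g * x * g⁻¹) * g := by group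
        rw [this, h7]; group
      have hf : ∃ f : ProjectiveSpecialLinearGroup (Fin 2) F, f * f = 1 ∧ f ≠ 1 ∧ f * x * f⁻¹ = x := by
        rcases hcj a with h7 | h7
        · exact ⟨a, ha, ha1, h7⟩
        rcases hcj w with h8 | h8
        · exact ⟨w, hw, hw1, h8⟩
        refine ⟨a * w, ?_, ?_, ?_⟩
        · calc a * w * (a * w) = a * (w * a) * w := by group
            _ = a * (a * w) * w := by rw [hcom]
            _ = (a * a) * (w * w) := by group
            _ = 1 := by rw [ha, hw, one_mul]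
        · intro h9
          apply haw
          exact mul_right_cancel (h9.trans hw.symm)
        · calc a * w * x * (a * w)⁻¹ = a * (w * x * w⁻¹) * a⁻¹ := by group
            _ = a * (x : ProjectiveSpecialLinearGroup (Fin 2) F)⁻¹ * a⁻¹ := by rw [h8]
            _ = (a * x * a⁻¹)⁻¹ := by group
            _ = x := by rw [h7, inv_inv]
      obtain ⟨f, hff, hf1, hfx⟩ := hf
      have hall : ∀ f' : ProjectiveSpecialLinearGroup (Fin 2) F, f' * f' = 1 → f' ≠ 1 → f = f' := by
        intro f' hff' hf1'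
        obtain ⟨g, hg⟩ := psl_conj h2 hff hf1 hff' hf1'
        refine psl_uniq h2 (x := x) (by rw [hx']; exact ⟨1, rfl⟩) hx1 hff hf1 hff' hf1' ?_ ?_
        · exact mul_inv_eq_iff_eq_mul.1 hfx
        · apply mul_inv_eq_iff_eq_mul.1
          rw [← hg]
          have h9 : g⁻¹ * x * g = x ∨ g⁻¹ * x * g = (x : ProjectiveSpecialLinearGroup (Fin 2) F)⁻¹ := by
            have := hcj g⁻¹
            rwa [inv_inv] at this
          calc g * f * g⁻¹ * x * (g * f * g⁻¹)⁻¹ = g * (f * (g⁻¹ * x * g) * f⁻¹) * g⁻¹ := by group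
            _ = g * (g⁻¹ * x * g) * g⁻¹ := by
              congr 2
              rcases h9 with h9 | h9
              · rw [h9, hfx]
              · rw [h9]
                calc f * (x : ProjectiveSpecialLinearGroup (Fin 2) F)⁻¹ * f⁻¹ = (f * x * f⁻¹)⁻¹ := by group
                  _ = _ := by rw [hfx]
            _ = x := by group
      exact haw ((hall a ha ha1).symm.trans (hall w hw hw1))

end psl

variable {G : Type*} [Group G]

/-- the facts on `PSL(2,q)` that we use -/
structure PF (L : Subgroup G) : Prop where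
  cj : ∀ a ∈ L, ∀ b ∈ L, a * a = 1 → a ≠ 1 → b * b = 1 → b ≠ 1 → ∃ g ∈ L, g * a * g⁻¹ = b
  un : ∀ x ∈ L, Odd (orderOf x) → x ≠ 1 → ∀ f ∈ L, f * f = 1 → f ≠ 1 → ∀ f' ∈ L, f' * f' = 1 → f' ≠ 1 →
    f * x = x * f → f' * x = x * f' → f = f'
  four : ∀ e ∈ L, e * e = 1 → e ≠ 1 → ∃ f ∈ L, f * f = 1 ∧ f ≠ 1 ∧ f ≠ e ∧ e * f = f * e
  core : ∀ D : Subgroup G, D ≤ L → L ≤ normalizer (D : Set G) → Odd (Nat.card D) → D = ⊥
  ex : ∃ e ∈ L, e * e = 1 ∧ e ≠ 1

theorem pf_of_equiv {F : Type*} [Field F] [Fintype F] (hF : Odd (Fintype.card F)) {L : Subgroup G}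
    (e : L ≃* Matrix.ProjectiveSpecialLinearGroup (Fin 2) F) : PF L := by
  have h2 := two_ne_zero' hF
  have hE1 : ∀ {a : G} (ha : a ∈ L), a * a = 1 → e ⟨a, ha⟩ * e ⟨a, ha⟩ = 1 := by
    intro a ha h
    rw [← map_mul, ← map_one e]
    congr 1
    exact Subtype.ext h
  have hE2 : ∀ {a : G} (ha : a ∈ L), a ≠ 1 → e ⟨a, ha⟩ ≠ 1 := by
    intro a ha h h1
    rw [← map_one e] at h1
    exact h (congrArg Subtype.val (e.injective h1))
  have hE3 : ∀ {a b : G} (ha : a ∈ L) (hb : b ∈ L), a * b = b * a → e ⟨a, ha⟩ * e ⟨b, hb⟩ = e ⟨b, hb⟩ * e ⟨a, ha⟩ := by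
    intro a b ha hb h
    rw [← map_mul, ← map_mul]
    congr 1
    exact Subtype.ext h
  refine ⟨?_, ?_, ?_, ?_, ?_⟩
  · intro a ha b hb haa ha1 hbb hb1
    obtain ⟨g, hg⟩ := psl_conj h2 (hE1 ha haa) (hE2 ha ha1) (hE1 hb hbb) (hE2 hb hb1)
    refine ⟨(e.symm g : G), (e.symm g).2, ?_⟩
    have h3 : e.symm g * ⟨a, ha⟩ * (e.symm g)⁻¹ = ⟨b, hb⟩ := by
      apply e.injective
      rw [map_mul, map_mul, map_inv, e.apply_symm_apply, hg]
    exact congrArg Subtype.val h3
  · intro x hx hxo hx1 f hf hff hf1 f' hf' hff' hf1' h3 h4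
    have h5 := psl_uniq h2 (x := e ⟨x, hx⟩) (by
      rw [MulEquiv.orderOf_eq, Subgroup.orderOf_mk]; exact hxo) (hE2 hx hx1) (hE1 hf hff) (hE2 hf hf1)
      (hE1 hf' hff') (hE2 hf' hf1') (hE3 hf hx h3) (hE3 hf' hx h4)
    exact congrArg Subtype.val (e.injective h5)
  · intro s hs hss hs1
    obtain ⟨a, w, ha, hw, ha1, hw1, haw, hcom, -⟩ := H58.PSL2V4.exists_v4 (F := F) h2
    obtain ⟨g, hg⟩ := psl_conj h2 ha ha1 (hE1 hs hss) (hE2 hs hs1)
    have key : ∀ u : Matrix.ProjectiveSpecialLinearGroup (Fin 2) F, u * u = 1 → (g * u * g⁻¹) * (g * u * g⁻¹) = 1 := by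
      intro u hu
      calc (g * u * g⁻¹) * (g * u * g⁻¹) = g * (u * u) * g⁻¹ := by group
        _ = 1 := by rw [hu]; group
    refine ⟨(e.symm (g * w * g⁻¹) : G), (e.symm (g * w * g⁻¹)).2, ?_, ?_, ?_, ?_⟩
    · have h3 : e.symm (g * w * g⁻¹) * e.symm (g * w * g⁻¹) = 1 := by
        rw [← map_mul, key w hw, map_one]
      exact congrArg Subtype.val h3
    · intro h3
      apply hw1
      have h4 : e.symm (g * w * g⁻¹) = 1 := Subtype.ext h3
      have h5 : g * w * g⁻¹ = 1 := by
        rw [← e.apply_symm_apply (g * w * g⁻¹), h4, map_one]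
      have : w = g⁻¹ * (g * w * g⁻¹) * g := by group
      rw [this, h5]; group
    · intro h3
      apply haw
      have h4 : e.symm (g * w * g⁻¹) = ⟨s, hs⟩ := Subtype.ext h3
      have h5 : g * w * g⁻¹ = g * a * g⁻¹ := by
        rw [← e.apply_symm_apply (g * w * g⁻¹), h4, hg]
      exact (mul_left_cancel (mul_right_cancel h5)).symm
    · have h3 : (⟨s, hs⟩ : L) * e.symm (g * w * g⁻¹) = e.symm (g * w * g⁻¹) * ⟨s, hs⟩ := by
        have h4 : e ⟨s, hs⟩ * (g * w * g⁻¹) = (g * w * g⁻¹) * e ⟨s, hs⟩ := by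
          rw [← hg]
          calc g * a * g⁻¹ * (g * w * g⁻¹) = g * (a * w) * g⁻¹ := by group
            _ = g * (w * a) * g⁻¹ := by rw [hcom]
            _ = _ := by group
        obtain ⟨u, hu⟩ : ∃ u, u = g * w * g⁻¹ := ⟨_, rfl⟩
        rw [← hu] at h4 ⊢
        apply e.injective
        rw [map_mul, map_mul, e.apply_symm_apply, h4]
      exact congrArg Subtype.val h3
  · intro D hDL hLD ho
    have hn : (D.subgroupOf L).Normal := (Subgroup.normal_subgroupOf_iff_le_normalizer hDL).2 hLD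
    have h3 : ((D.subgroupOf L).map e.toMonoidHom).Normal := hn.map _ e.surjective
    have h4 := psl_core hF _ h3 (by
      rw [Subgroup.card_map_of_injective (f := e.toMonoidHom) e.injective,
        Nat.card_congr (subgroupOfEquivOfLe hDL).toEquiv]
      exact ho)
    rw [Subgroup.map_eq_bot_iff_of_injective _ (f := e.toMonoidHom) e.injective, Subgroup.subgroupOf_eq_bot, disjoint_iff] at h4
    rw [eq_bot_iff, ← h4]
    exact le_inf le_rfl hDL
  · obtain ⟨a, w, ha, hw, ha1, hw1, haw, hcom, -⟩ := H58.PSL2V4.exists_v4 (F := F) h2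
    refine ⟨(e.symm a : G), (e.symm a).2, ?_, ?_⟩
    · have h3 : e.symm a * e.symm a = 1 := by rw [← map_mul, ha, map_one]
      exact congrArg Subtype.val h3
    · intro h3
      apply ha1
      have h4 : e.symm a = 1 := Subtype.ext h3
      rw [← e.apply_symm_apply a, h4, map_one]

end H27.AB
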