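import Mathlib
import Cfsg.Agent.Lib.H3.ClassTwo
import Cfsg.Agent.Lib.H1.Coprime2
import Cfsg.Agent.Lib.H1.Frat
import Cfsg.Agent.Lib.H26.LocalFitting
import Cfsg.Agent.Lib.H30.Nil

/-!
The Baer trick and an `A × B` type lemma for odd `p` where `A` only normalizes `B`.
-/

set_option autoImplicit false
set_option linter.unusedSectionVars false

open Subgroup
open scoped commutatorElement

namespace H27.Baer

section baer

variable {D : Type*} [Group D]

/-- Baer's sum -/
def bsum (m : ℕ) (x y : D) : D := x * y * ⁅y, x⁆ ^ m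

variable (hZ : commutator D ≤ center D)

include hZ

theorem cc (a b g : D) : ⁅a, b⁆ * g = g * ⁅a, b⁆ := (H3.ClassTwo.commute_comm hZ a b g).eq

theorem ccp (a b g : D) (m : ℕ) : ⁅a, b⁆ ^ m * g = g * ⁅a, b⁆ ^ m :=
  ((H3.ClassTwo.commute_comm hZ a b g).pow_left m).eq

theorem comm_comm_right (z a b : D) (m : ℕ) : ⁅z, ⁅a, b⁆ ^ m⁆ = 1 := by
  rw [commutatorElement_eq_one_iff_mul_comm, ccp hZ]

theorem comm_comm_left (z a b : D) (m : ℕ) : ⁅⁅a, b⁆ ^ m, z⁆ = 1 := by
  rw [commutatorElement_eq_one_iff_mul_comm, ccp hZ]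

theorem bsum_assoc (m : ℕ) (x y z : D) : bsum m (bsum m x y) z = bsum m x (bsum m y z) := by
  unfold bsum
  rw [H3.ClassTwo.mul_right hZ z, H3.ClassTwo.mul_right hZ z, comm_comm_right hZ, mul_one,
    H3.ClassTwo.mul_left hZ _ _ x, H3.ClassTwo.mul_left hZ _ _ x, comm_comm_left hZ, mul_one]
  have h1 : (⁅z, x⁆ * ⁅z, y⁆) ^ m = ⁅z, x⁆ ^ m * ⁅z, y⁆ ^ m :=
    (H3.ClassTwo.commute_comm hZ z x _).mul_pow m
  have h2 : (⁅y, x⁆ * ⁅z, x⁆) ^ m = ⁅y, x⁆ ^ m * ⁅z, x⁆ ^ m :=
    (H3.ClassTwo.commute_comm hZ y x _).mul_pow m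
  rw [h1, h2]
  calc x * y * ⁅y, x⁆ ^ m * z * (⁅z, x⁆ ^ m * ⁅z, y⁆ ^ m)
      = x * y * (⁅y, x⁆ ^ m * z) * (⁅z, x⁆ ^ m * ⁅z, y⁆ ^ m) := by group
    _ = x * y * (z * ⁅y, x⁆ ^ m) * (⁅z, y⁆ ^ m * ⁅z, x⁆ ^ m) := by
        rw [ccp hZ y x z, ccp hZ z x]
    _ = x * y * z * (⁅y, x⁆ ^ m * ⁅z, y⁆ ^ m) * ⁅z, x⁆ ^ m := by group
    _ = x * y * z * (⁅z, y⁆ ^ m * ⁅y, x⁆ ^ m) * ⁅z, x⁆ ^ m := by rw [ccp hZ y x]
    _ = x * (y * z * ⁅z, y⁆ ^ m) * (⁅y, x⁆ ^ m * ⁅z, x⁆ ^ m) := by group

theorem bsum_comm {p m : ℕ} (hexp : ∀ x : D, x ^ p = 1) (hm : 2 * m = p + 1) (x y : D) :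
    bsum m x y = bsum m y x := by
  unfold bsum
  have h1 : x * y = y * x * ⁅x, y⁆ := by
    have h2 : x * y = ⁅x, y⁆ * (y * x) := by rw [commutatorElement_def]; group
    rw [h2, cc hZ]
  have h2 : ⁅y, x⁆ = ⁅x, y⁆⁻¹ := (commutatorElement_inv x y).symm
  have h3 : ⁅x, y⁆ ^ (2 * m) = ⁅x, y⁆ := by
    rw [hm, pow_succ, hexp, one_mul]
  rw [h1, h2, mul_assoc]
  congr 1
  have h4 : ⁅x, y⁆ * (⁅x, y⁆⁻¹) ^ m * ⁅x, y⁆ ^ m = ⁅x, y⁆ := by
    rw [inv_pow, inv_mul_cancel_right]
  have h5 : ⁅x, y⁆ ^ m * ⁅x, y⁆ ^ m = ⁅x, y⁆ := by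
    rw [← pow_add, ← two_mul, h3]
  exact mul_right_cancel (h4.trans h5.symm)

omit hZ in
theorem one_bsum (m : ℕ) (x : D) : bsum m 1 x = x := by simp [bsum]

omit hZ in
theorem bsum_one (m : ℕ) (x : D) : bsum m x 1 = x := by simp [bsum]

omit hZ in
theorem inv_bsum (m : ℕ) (x : D) : bsum m x⁻¹ x = 1 := by
  unfold bsum
  have : ⁅x, x⁻¹⁆ = 1 := by rw [commutatorElement_eq_one_iff_mul_comm]; group
  rw [this]; simp

/-- the Baer group: `D` (class at most two, exponent `p`, `2 m = p + 1`) with Baer's sum. -/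
@[reducible] def baerGroup {p m : ℕ} (hexp : ∀ x : D, x ^ p = 1) (hm : 2 * m = p + 1) :
    AddCommGroup D :=
  let _ : Add D := ⟨bsum m⟩
  let _ : Zero D := ⟨1⟩
  let _ : Neg D := ⟨fun x => x⁻¹⟩
  { AddGroup.ofLeftAxioms (G := D) (bsum_assoc hZ m) (one_bsum m) (inv_bsum m) with
    add_comm := bsum_comm hZ hexp hm }

omit hZ in
theorem bsum_of_comm {m : ℕ} {x y : D} (h : x * y = y * x) : bsum m x y = x * y := by
  unfold bsum
  have : ⁅y, x⁆ = 1 := by rw [commutatorElement_eq_one_iff_mul_comm, h]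
  rw [this]; simp

/-- the key fact: if a finite group `Q` of order prime to `p` and a `p`-group `A` act on `D`
(class ≤ 2, exponent `p` odd), `A` normalizing the action of `Q`, and `Q` fixes the fixed points of
`A`, then `Q` acts trivially. -/
theorem fixed_of_fixed [Finite D] {p : ℕ} [hp : Fact p.Prime] (hp2 : p ≠ 2)
    (hexp : ∀ x : D, x ^ p = 1) {A Q : Type*} [Group A] [Finite A] [Group Q] [Finite Q]
    [MulDistribMulAction A D] [MulDistribMulAction Q D] (hA : IsPGroup p A)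
    (hQ : (Nat.card Q).Coprime p) (c : A → Q ≃ Q)
    (hc : ∀ (a : A) (q : Q) (x : D), a • (q • x) = (c a q) • (a • x))
    (hfix : ∀ x : D, (∀ a : A, a • x = x) → ∀ q : Q, q • x = x) (q : Q) (x : D) : q • x = x := by
  obtain ⟨m, hm⟩ : ∃ m, 2 * m = p + 1 := by
    obtain ⟨k, hk⟩ := hp.out.odd_of_ne_two hp2
    exact ⟨k + 1, by omega⟩
  let _ : AddCommGroup D := baerGroup hZ hexp hm
  have hadd : ∀ x y : D, x + y = bsum m x y := fun _ _ => rfl
  have hzero : (0 : D) = 1 := rfl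
  have hneg : ∀ x : D, -x = x⁻¹ := fun _ => rfl
  have := Fintype.ofFinite Q
  -- actions are additive
  have haddQ : ∀ (q : Q) (x y : D), q • (x + y) = q • x + q • y := by
    intro q x y
    rw [hadd, hadd]
    unfold bsum
    rw [smul_mul', smul_mul', smul_pow', commutatorElement_def, commutatorElement_def, smul_mul',
      smul_mul', smul_mul', smul_inv', smul_inv']
  have haddA : ∀ (q : A) (x y : D), q • (x + y) = q • x + q • y := by
    intro q x y
    rw [hadd, hadd]
    unfold bsum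
    rw [smul_mul', smul_mul', smul_pow', commutatorElement_def, commutatorElement_def, smul_mul',
      smul_mul', smul_mul', smul_inv', smul_inv']
  let actQ : Q → D →+ D := fun q =>
    { toFun := fun x => q • x
      map_zero' := by rw [hzero, smul_one]
      map_add' := haddQ q }
  let actA : A → D →+ D := fun q =>
    { toFun := fun x => q • x
      map_zero' := by rw [hzero, smul_one]
      map_add' := haddA q }
  -- the norm
  let N : D →+ D := ∑ q : Q, actQ q
  have hN : ∀ x, N x = ∑ q : Q, q • x := by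
    intro x
    simp only [N, AddMonoidHom.finsetSum_apply]
    rfl
  have hpow : ∀ (n : ℕ) (x : D), n • x = x ^ n := by
    intro n x
    induction n with
    | zero => rw [zero_nsmul, pow_zero]; rfl
    | succ n ih =>
      rw [succ_nsmul, ih, hadd, bsum_of_comm (by rw [← pow_succ, ← pow_succ']), pow_succ]
  have hNfix : ∀ x : D, (∀ q : Q, q • x = x) → N x = Nat.card Q • x := by
    intro x hx
    rw [hN, Finset.sum_congr rfl (fun q _ => hx q), Finset.sum_const, Finset.card_univ,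
      Nat.card_eq_fintype_card]
  have hcopzero : ∀ x : D, Nat.card Q • x = 0 → x = 0 := by
    intro x hx
    rw [hpow, hzero] at hx
    rw [hzero]
    have h1 := orderOf_dvd_of_pow_eq_one hx
    have h2 := orderOf_dvd_of_pow_eq_one (hexp x)
    exact orderOf_eq_one_iff.mp (Nat.eq_one_of_dvd_coprimes hQ h1 h2)
  -- `A` commutes with the norm
  have hNA : ∀ (a : A) (x : D), N (a • x) = a • N x := by
    intro a x
    have h1 : a • N x = ∑ q : Q, a • (q • x) := by
      rw [hN]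
      exact map_sum (actA a) (fun q => q • x) Finset.univ
    rw [h1, hN, Finset.sum_congr rfl (fun q _ => hc a q x)]
    exact (Equiv.sum_comp (c a) (fun q => q • (a • x))).symm
  -- the kernel
  let S : Set D := {x | N x = 0}
  have hSstab : ∀ (a : A) (x : D), x ∈ S → a • x ∈ S := by
    intro a x hx
    change N (a • x) = 0
    rw [hNA, show N x = 0 from hx, hzero, smul_one]
  let _ : MulAction A S :=
    { smul := fun a x => ⟨a • (x : D), hSstab a x x.2⟩
      one_smul := fun x => Subtype.ext (one_smul A (x : D))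
      mul_smul := fun a b x => Subtype.ext (mul_smul a b (x : D)) }
  have hS0 : ∀ x ∈ S, x = 0 := by
    -- the kernel is a `p`-group
    by_contra hcon
    push Not at hcon
    obtain ⟨x₀, hx₀, hx₀0⟩ := hcon
    have hcardS : p ∣ Nat.card S := by
      have h1 : Nat.card S = Nat.card N.ker := rfl
      rw [h1]
      have h2 : addOrderOf (⟨x₀, hx₀⟩ : N.ker) = p := by
        apply addOrderOf_eq_prime
        · apply Subtype.ext
          change p • x₀ = 0
          rw [hpow, hexp]; rfl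
        · intro h
          exact hx₀0 (congrArg Subtype.val h)
      rw [← h2]
      exact addOrderOf_dvd_natCard _
    have h0fix : (⟨0, map_zero N⟩ : S) ∈ MulAction.fixedPoints A S := by
      intro a
      apply Subtype.ext
      change a • (0 : D) = 0
      rw [hzero, smul_one]
    obtain ⟨y, hy, hy0⟩ := hA.exists_fixed_point_of_prime_dvd_card_of_fixed_point S hcardS h0fix
    have hyfix : ∀ a : A, a • (y : D) = y := fun a => congrArg Subtype.val (hy a)
    have h1 := hNfix y (hfix y hyfix)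
    have h2 : N (y : D) = 0 := y.2
    rw [h2] at h1
    apply hy0
    apply Subtype.ext
    exact (hcopzero y h1.symm).symm
  -- conclusion
  have h1 : N (q • x) = N x := by
    rw [hN, hN]
    have h2 : ∀ r : Q, r • q • x = (r * q) • x := fun r => (mul_smul r q x).symm
    rw [Finset.sum_congr rfl (fun r _ => h2 r)]
    exact Equiv.sum_comp (Equiv.mulRight q) (fun r => r • x)
  have h2 : N (q • x - x) = 0 := by rw [map_sub, h1, sub_self]
  have h3 := hS0 _ h2
  exact sub_eq_zero.mp h3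

end baer

section main

open H1.Coprime H1.Coprime2 H26.Basic

variable {G : Type*} [Group G] [Finite G] {p : ℕ} [hp : Fact p.Prime]

/-- conjugation action of a subgroup of the normalizer -/
@[reducible] def conjAct (D A : Subgroup G) (h : A ≤ normalizer (D : Set G)) :
    MulDistribMulAction A D where
  smul a x := ⟨(a : G) * x * (a : G)⁻¹, conj_mem_of_le_normalizer h a.2 x.2⟩
  one_smul x := Subtype.ext (by
    change ((1 : A) : G) * x * ((1 : A) : G)⁻¹ = x
    simp)
  mul_smul a b x := Subtype.ext (by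
    change ((a * b : A) : G) * x * ((a * b : A) : G)⁻¹ = a * (b * x * (b : G)⁻¹) * (a : G)⁻¹
    push_cast; group)
  smul_mul a x y := Subtype.ext (by
    change (a : G) * ((x * y : D) : G) * (a : G)⁻¹ = (a * x * (a : G)⁻¹) * (a * y * (a : G)⁻¹)
    push_cast; group)
  smul_one a := Subtype.ext (by
    change (a : G) * ((1 : D) : G) * (a : G)⁻¹ = ((1 : D) : G)
    simp)

theorem comm_of_fixed (hp2 : p ≠ 2) {P A Q : Subgroup G} (hP : IsPGroup p P) (hA : IsPGroup p A)
    (hQ : (Nat.card Q).Coprime p) (hAP : A ≤ normalizer (P : Set G))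
    (hQP : Q ≤ normalizer (P : Set G)) (hAQ : A ≤ normalizer (Q : Set G))
    (hfix : ∀ x ∈ P, x ^ p = 1 → x ∈ centralizer (A : Set G) → x ∈ centralizer (Q : Set G)) :
    ⁅P, Q⁆ = ⊥ := by
  by_contra hcon
  obtain ⟨D, ⟨hDP, hAD, hQD, hne⟩, hmin⟩ := (Set.toFinite {D : Subgroup G | D ≤ P ∧
    A ≤ normalizer (D : Set G) ∧ Q ≤ normalizer (D : Set G) ∧ ⁅D, Q⁆ ≠ ⊥}).exists_minimal
    ⟨P, le_rfl, hAP, hQP, hcon⟩
  have hDp : IsPGroup p D := hP.to_le hDP
  have hDn : Group.IsNilpotent D := hDp.isNilpotent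
  have hmin' : ∀ E : Subgroup G, E ≤ D → A ≤ normalizer (E : Set G) → Q ≤ normalizer (E : Set G) →
      ¬ D ≤ E → ⁅E, Q⁆ = ⊥ := by
    intro E hE h1 h2 h3
    by_contra h4
    exact h3 (hmin ⟨hE.trans hDP, h1, h2, h4⟩ hE)
  have hcop : (Nat.card Q).Coprime (Nat.card D) := (H1.Cores.coprime_card_of_isPGroup hDp hQ).symm
  have hD1 : ⁅D, Q⁆ = D := by
    by_contra h
    have h1 : ⁅D, Q⁆ ≤ D := commutator_le_left hQD
    have h2 := hmin' ⁅D, Q⁆ h1 (le_normalizer_commutator hAD hAQ)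
      (le_normalizer_commutator_right D Q) (fun h2 => h (le_antisymm h1 h2))
    rw [commutator_commutator_eq Q D hQD hcop (Or.inr inferInstance)] at h2
    exact hne h2
  have hDne : D ≠ ⊥ := by
    rintro rfl
    exact hne (Subgroup.commutator_bot_left _)
  have hDnt : Nontrivial D := (Subgroup.nontrivial_iff_ne_bot _).mpr hDne
  -- the Frattini subgroup
  set W : Subgroup G := (frattini D).map D.subtype with hW
  have hWD : W ≤ D := Subgroup.map_subtype_le _
  have hNW : normalizer (D : Set G) ≤ normalizer (W : Set G) :=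
    H26.LocalFitting.normalizer_le_normalizer_map_char D (frattini D)
  have hWlt : ¬ D ≤ W := by
    intro hle
    have h1 : frattini D = ⊤ := by
      rw [eq_top_iff]
      intro x _
      obtain ⟨y, hy, hyx⟩ := hle x.2
      have : y = x := Subtype.ext hyx
      rwa [← this]
    have h2 : IsCoatomic (Subgroup D) := inferInstance
    obtain ⟨M, hM, -⟩ := (eq_top_or_exists_le_coatom (⊥ : Subgroup D)).resolve_left bot_ne_top
    have h3 := frattini_le_coatom hM
    rw [h1] at h3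
    exact hM.1 (top_le_iff.mp h3)
  have hWQ : ⁅W, Q⁆ = ⊥ := hmin' W hWD (hAD.trans hNW) (hQD.trans hNW) hWlt
  have hDW : D ≤ normalizer (W : Set G) := Subgroup.le_normalizer.trans hNW
  -- `W` is central in `D`
  have hWc : ⁅D, W⁆ = ⊥ := by
    have h1 : ⁅⁅W, Q⁆, D⁆ = ⊥ := by rw [hWQ, Subgroup.commutator_bot_left]
    have h2 : ⁅⁅D, W⁆, Q⁆ = ⊥ :=
      commutator_eq_bot_mono hWQ (commutator_le_right hDW) le_rfl
    have h3 : ⁅⁅Q, D⁆, W⁆ = ⊥ := Subgroup.commutator_commutator_eq_bot_of_rotate h2 h1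
    rw [Subgroup.commutator_comm Q D, hD1] at h3
    exact h3
  have hWcent : ∀ w ∈ W, ∀ x ∈ D, w * x = x * w := fun w hw x hx =>
    (commute_of_commutator_eq_bot hWc hx hw).symm
  have hfr : frattini D ≤ center D := by
    intro w hw
    rw [Subgroup.mem_center_iff]
    intro x
    exact Subtype.ext (hWcent w ⟨w, hw, rfl⟩ x x.2).symm
  have hZ : commutator D ≤ center D := H1.Frat.commutator_le_frattini.trans hfr
  have hpowW : ∀ x : D, x ^ p ∈ center D := fun x => hfr (H1.Frat.pow_mem_frattini hDp x)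
  have hcp : ∀ x y : D, ⁅y, x⁆ ^ p = 1 := by
    intro x y
    rw [← H3.ClassTwo.pow_left hZ, commutatorElement_eq_one_iff_mul_comm]
    exact (Subgroup.mem_center_iff.mp (hpowW y) x).symm
  have hmulp : ∀ x y : D, (x * y) ^ p = x ^ p * y ^ p := fun x y =>
    H3.ClassTwo.mul_pow_prime hZ hp.out hp2 x y (hcp x y)
  -- exponent `p`
  have hexp : ∀ x : D, x ^ p = 1 := by
    let E : Subgroup G :=
      { carrier := {x | x ∈ D ∧ x ^ p = 1}
        mul_mem' := fun {x y} hx hy => ⟨D.mul_mem hx.1 hy.1, by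
          have := congrArg Subtype.val (hmulp ⟨x, hx.1⟩ ⟨y, hy.1⟩)
          change (x * y) ^ p = x ^ p * y ^ p at this
          rw [this, hx.2, hy.2, one_mul]⟩
        one_mem' := ⟨D.one_mem, one_pow p⟩
        inv_mem' := fun {x} hx => ⟨D.inv_mem hx.1, by rw [inv_pow, hx.2, inv_one]⟩ }
    have hle : ⁅D, Q⁆ ≤ E := by
      rw [Subgroup.commutator_le]
      intro x hx q hq
      have h1 : q * x⁻¹ * q⁻¹ ∈ D := conj_mem_of_le_normalizer hQD hq (D.inv_mem hx)
      have e1 : ⁅x, q⁆ = x * (q * x⁻¹ * q⁻¹) := by rw [commutatorElement_def]; group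
      rw [e1]
      refine ⟨D.mul_mem hx h1, ?_⟩
      have h2 := congrArg Subtype.val (hmulp ⟨x, hx⟩ ⟨_, h1⟩)
      change (x * (q * x⁻¹ * q⁻¹)) ^ p = x ^ p * (q * x⁻¹ * q⁻¹) ^ p at h2
      rw [h2, conj_pow]
      have h3 : x⁻¹ ^ p ∈ W := by
        have h4 := H1.Frat.pow_mem_frattini hDp (⟨x⁻¹, D.inv_mem hx⟩ : D)
        exact ⟨_, h4, rfl⟩
      have h4 := commute_of_commutator_eq_bot hWQ h3 hq
      rw [← h4, mul_inv_cancel_right, inv_pow, mul_inv_cancel]
    rw [hD1] at hle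
    intro x
    exact Subtype.ext (hle x.2).2
  -- apply the Baer trick
  let _ : MulDistribMulAction A D := conjAct D A hAD
  let _ : MulDistribMulAction Q D := conjAct D Q hQD
  have hsA : ∀ (a : A) (x : D), ((a • x : D) : G) = a * x * (a : G)⁻¹ := fun _ _ => rfl
  have hsQ : ∀ (a : Q) (x : D), ((a • x : D) : G) = a * x * (a : G)⁻¹ := fun _ _ => rfl
  let c : A → Q ≃ Q := fun a => (Q.normalizerMonoidHom ⟨a, hAQ a.2⟩).toEquiv
  have hcv : ∀ (a : A) (q : Q), ((c a q : Q) : G) = a * q * (a : G)⁻¹ := fun _ _ => rfl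
  have key := fixed_of_fixed hZ (A := A) (Q := Q) hp2 hexp hA hQ c
    (by
      intro a q x
      apply Subtype.ext
      rw [hsA, hsQ, hsQ, hsA, hcv]
      group)
    (by
      intro x hx q
      have h1 : (x : G) ∈ centralizer (A : Set G) := by
        rw [Subgroup.mem_centralizer_iff]
        intro a ha
        have := congrArg Subtype.val (hx ⟨a, ha⟩)
        rw [hsA] at this
        exact mul_inv_eq_iff_eq_mul.mp this
      have h2 := hfix x (hDP x.2) (congrArg Subtype.val (hexp x)) h1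
      apply Subtype.ext
      rw [hsQ, mul_inv_eq_iff_eq_mul]
      exact Subgroup.mem_centralizer_iff.mp h2 q q.2)
  apply hne
  rw [commutator_eq_bot_iff_forall]
  intro x hx q hq
  have := congrArg Subtype.val (key ⟨q, hq⟩ ⟨x, hx⟩)
  rw [hsQ, mul_inv_eq_iff_eq_mul] at this
  exact this.symm

end main

end H27.Baer
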