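import Mathlib
import Cfsg.Agent.Lib.H27.GenSub
import Cfsg.Agent.Lib.H1.Cyc
import Cfsg.Agent.Lib.H66.CopAb
import Cfsg.Agent.Lib.H3.TransferCenter
import Cfsg.Agent.Lib.H3.CardSup
import Cfsg.Agent.Lib.H26.Basic

/-!
Generation by centralizers of subgroups with cyclic quotient, and a generation statement for
`Y = [Y, A]`.
-/

set_option autoImplicit false
set_option linter.unusedSectionVars false
set_option linter.style.haveILetI false

open Subgroup H1.Coprime H1.Coprime2 H26.Basic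
open scoped commutatorElement Pointwise

universe u

namespace H27.GenCyc

variable {G : Type u} [Group G]

/-- `B₀ ≤ B` with `B / B₀` cyclic -/
def Cyc (B B₀ : Subgroup G) : Prop := B₀ ≤ B ∧ ∃ b ∈ B, B ≤ B₀ ⊔ zpowers b

theorem Cyc.self (B : Subgroup G) : Cyc B B := ⟨le_rfl, 1, B.one_mem, le_sup_left⟩

theorem exists_two [Finite G] {p : ℕ} [hp : Fact p.Prime] {B D : Subgroup G} (hB : IsPGroup p B)
    (hcomm : ∀ a ∈ B, ∀ b ∈ B, a * b = b * a) (hDB : D ≤ B) (h : ¬ Cyc B D) :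
    ∃ x ∈ B, ∃ y ∈ B, x ^ p ∈ D ∧ y ^ p ∈ D ∧ x ∉ D ∧ ∀ i : ℕ, x ^ i * y ∉ D := by
  have hn : (D.subgroupOf B).Normal := by
    constructor
    intro n hn g
    have : g * n * g⁻¹ = n := by
      have h1 := hcomm g g.2 n n.2
      apply Subtype.ext
      change (g : G) * n * (g : G)⁻¹ = n
      rw [h1, mul_inv_cancel_right]
    rw [this]; exact hn
  let q : B →* B ⧸ D.subgroupOf B := QuotientGroup.mk' _
  have hqs : Function.Surjective q := QuotientGroup.mk'_surjective _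
  have hq1 : ∀ g : B, q g = 1 ↔ (g : G) ∈ D := fun g => by
    rw [← mem_subgroupOf]; exact QuotientGroup.eq_one_iff g
  have hc : ∀ a b : B ⧸ D.subgroupOf B, a * b = b * a := by
    intro a b
    obtain ⟨a, rfl⟩ := hqs a
    obtain ⟨b, rfl⟩ := hqs b
    rw [← map_mul, ← map_mul]
    congr 1
    exact Subtype.ext (hcomm a a.2 b b.2)
  have hnc : ¬ IsCyclic (B ⧸ D.subgroupOf B) := by
    rintro ⟨g, hg⟩
    obtain ⟨g, rfl⟩ := hqs g
    apply h
    refine ⟨hDB, g, g.2, fun b hb => ?_⟩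
    obtain ⟨k, hk⟩ := mem_zpowers_iff.mp (hg (q ⟨b, hb⟩))
    rw [← map_zpow] at hk
    have h2 : q (⟨b, hb⟩ * (g ^ k)⁻¹) = 1 := by rw [map_mul, map_inv, hk, mul_inv_cancel]
    rw [hq1] at h2
    have h3 : b = (b * ((g : G) ^ k)⁻¹) * (g : G) ^ k := by group
    rw [h3]
    exact mul_mem_sup h2 ⟨k, rfl⟩
  obtain ⟨r, a, b, hr, ha, hb, hba⟩ := H1.Cyc.exists_of_not_isCyclic hc hnc
  have hrp : r = p := by
    have h1 : orderOf a ∣ Nat.card (B ⧸ D.subgroupOf B) := orderOf_dvd_natCard a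
    obtain ⟨m, hm⟩ := IsPGroup.iff_card.mp (hB.to_quotient (D.subgroupOf B))
    rw [ha, hm] at h1
    exact (Nat.prime_dvd_prime_iff_eq hr hp.out).mp (hr.dvd_of_dvd_pow h1)
  rw [hrp] at ha hb
  obtain ⟨x, rfl⟩ := hqs a
  obtain ⟨y, rfl⟩ := hqs b
  refine ⟨x, x.2, y, y.2, ?_, ?_, ?_, ?_⟩
  · have h1 : q (x ^ p) = 1 := by rw [map_pow, ← ha, pow_orderOf_eq_one]
    rw [hq1] at h1
    exact h1
  · have h1 : q (y ^ p) = 1 := by rw [map_pow, ← hb, pow_orderOf_eq_one]
    rw [hq1] at h1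
    exact h1
  · intro h1
    rw [← hq1, ← orderOf_eq_one_iff, ha] at h1
    exact hp.out.one_lt.ne' h1
  · intro i h1
    apply hba
    have h2 : q (x ^ i * y) = 1 := (hq1 _).mpr h1
    rw [map_mul, map_pow] at h2
    have h3 : q y = ((q x) ^ i)⁻¹ := eq_inv_of_mul_eq_one_right h2
    rw [h3]
    exact inv_mem (pow_mem (mem_zpowers _) i)

theorem le_of_cyclic_aux [Finite G] (p : ℕ) [hp : Fact p.Prime] (B K M : Subgroup G) (hB : IsPGroup p B)
    (hcomm : ∀ a ∈ B, ∀ b ∈ B, a * b = b * a) (hBK : B ≤ normalizer (K : Set G)) (hK : ¬ p ∣ Nat.card K)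
    (hM : ∀ B₀ : Subgroup G, Cyc B B₀ → K ⊓ centralizer (B₀ : Set G) ≤ M) (n : ℕ) :
    ∀ D : Subgroup G, D ≤ B → Nat.card B - Nat.card D ≤ n → K ⊓ centralizer (D : Set G) ≤ M := by
  induction n with
  | zero =>
    intro D hD hn
    have h1 : D = B := Subgroup.eq_of_le_of_card_ge hD (by omega)
    rw [h1]
    exact hM B (Cyc.self B)
  | succ n ih =>
    intro D hD hn
    by_cases hcyc : Cyc B D
    · exact hM D hcyc
    obtain ⟨x, hx, y, hy, hxp, hyp, hxD, hxyD⟩ := exists_two hB hcomm hD hcyc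
    have hcard : ∀ z ∈ B, z ∉ D → Nat.card B - Nat.card (D ⊔ zpowers z : Subgroup G) ≤ n := by
      intro z hz hzD
      have h1 : D < D ⊔ zpowers z := by
        refine lt_of_le_of_ne le_sup_left fun h => hzD ?_
        rw [h]
        exact (le_sup_right : zpowers z ≤ _) (mem_zpowers z)
      have h2 : Nat.card D < Nat.card (D ⊔ zpowers z : Subgroup G) := Set.ncard_lt_ncard h1 (Set.toFinite _)
      have h3 : Nat.card (D ⊔ zpowers z : Subgroup G) ≤ Nat.card B :=
        Subgroup.card_le_of_le (sup_le hD ((zpowers_le).mpr hz))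
      omega
    have hstep : ∀ z ∈ B, z ∉ D → (K ⊓ centralizer (D : Set G)) ⊓ centralizer {z} ≤ M := by
      intro z hz hzD
      refine le_trans ?_ (ih (D ⊔ zpowers z) (sup_le hD ((zpowers_le).mpr hz)) (hcard z hz hzD))
      intro g hg
      refine mem_inf.mpr ⟨hg.1.1, ?_⟩
      rw [mem_centralizer_iff]
      have h1 : D ⊔ zpowers z ≤ centralizer ({g} : Set G) := by
        refine sup_le ?_ ((zpowers_le).mpr ?_)
        · intro d hd
          rw [mem_centralizer_singleton_iff]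
          exact mem_centralizer_iff.mp hg.1.2 d hd
        · rw [mem_centralizer_singleton_iff]
          exact ((mem_centralizer_singleton_iff).mp hg.2).symm
      intro h hh
      exact mem_centralizer_singleton_iff.mp (h1 hh)
    have hDK : B ≤ normalizer ((K ⊓ centralizer (D : Set G) : Subgroup G) : Set G) := by
      refine le_normalizer_inf hBK (le_normalizer_centralizer ?_)
      intro b hb
      rw [mem_normalizer_iff]
      intro d
      constructor
      · intro hd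
        rwa [hcomm b hb d (hD hd), mul_inv_cancel_right]
      · intro hd
        have h1 := hcomm b hb _ (hD hd)
        have h2 : b * d * b⁻¹ = d := by
          have : b * (b * d * b⁻¹) = b * d := by rw [h1]; group
          exact mul_left_cancel this
        rwa [h2] at hd
    have hcentD : ∀ d ∈ D, d ∈ centralizer ((K ⊓ centralizer (D : Set G) : Subgroup G) : Set G) := by
      intro d hd
      rw [mem_centralizer_iff]
      intro g hg
      exact (mem_centralizer_iff.mp hg.2 d hd).symm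
    exact GenSub.le_of_lines p B (K ⊓ centralizer (D : Set G)) hB hDK
      (fun h => hK (h.trans (Subgroup.card_dvd_of_le inf_le_left))) x y hx hy (hcomm x hx y hy)
      (hcentD _ hxp) (hcentD _ hyp) M (hstep x hx hxD)
      (fun i => hstep _ (B.mul_mem (B.pow_mem hx i) hy) (hxyD i))

/-- `K` is generated by the `C_K(B₀)`, `B / B₀` cyclic. -/
theorem le_of_cyclic [Finite G] (p : ℕ) [hp : Fact p.Prime] (B K M : Subgroup G) (hB : IsPGroup p B)
    (hcomm : ∀ a ∈ B, ∀ b ∈ B, a * b = b * a) (hBK : B ≤ normalizer (K : Set G)) (hK : ¬ p ∣ Nat.card K)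
    (hM : ∀ B₀ : Subgroup G, Cyc B B₀ → K ⊓ centralizer (B₀ : Set G) ≤ M) : K ≤ M := by
  have h := le_of_cyclic_aux p B K M hB hcomm hBK hK hM _ ⊥ bot_le le_rfl
  have h1 : K ⊓ centralizer ((⊥ : Subgroup G) : Set G) = K := by
    rw [inf_eq_left]
    intro g _
    rw [Subgroup.mem_centralizer_iff]
    intro x hx
    rw [SetLike.mem_coe, Subgroup.mem_bot] at hx
    rw [hx]; simp
  rwa [h1] at h

/-- the subgroup of the statement -/
def XX (A B Y : Subgroup G) : Subgroup G :=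
  ⨆ B₀ : {B₀ : Subgroup G // Cyc B B₀}, Y ⊓ centralizer (B : Set G) ⊓
    ⁅Y ⊓ centralizer ((B₀ : Subgroup G) : Set G), A⁆

theorem le_XX {A B Y B₀ : Subgroup G} (h : Cyc B B₀) : Y ⊓ centralizer (B : Set G) ⊓
    ⁅Y ⊓ centralizer (B₀ : Set G), A⁆ ≤ XX A B Y :=
  le_iSup (fun B₀ : {B₀ : Subgroup G // Cyc B B₀} => Y ⊓ centralizer (B : Set G) ⊓
    ⁅Y ⊓ centralizer ((B₀ : Subgroup G) : Set G), A⁆) ⟨B₀, h⟩

theorem XX_mono {A B Y₁ Y : Subgroup G} (h : Y₁ ≤ Y) : XX A B Y₁ ≤ XX A B Y := by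
  refine iSup_le fun B₀ => ?_
  exact (inf_le_inf (inf_le_inf_right _ h)
    (Subgroup.commutator_mono (inf_le_inf_right _ h) le_rfl)).trans (le_XX B₀.2)

theorem XX_le {A B Y : Subgroup G} : XX A B Y ≤ Y ⊓ centralizer (B : Set G) :=
  iSup_le fun _ => inf_le_left

/-- normalizing a subgroup of an abelian group -/
theorem le_normalizer_of_comm {A D : Subgroup G} (hA : ∀ a ∈ A, ∀ b ∈ A, a * b = b * a) (hD : D ≤ A) :
    A ≤ normalizer (D : Set G) := by
  intro b hb
  rw [mem_normalizer_iff]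
  intro d
  constructor
  · intro hd
    rwa [hA b hb d (hD hd), mul_inv_cancel_right]
  · intro hd
    have h1 := hA b hb _ (hD hd)
    have h2 : b * d * b⁻¹ = d := by
      have : b * (b * d * b⁻¹) = b * d := by rw [h1]; group
      exact mul_left_cancel this
    rwa [h2] at hd

section quot

variable [Finite G] {p : ℕ} [hp : Fact p.Prime]

/-- the quotient step, `V` normal in `G` -/
theorem quot_step (A B Y V : Subgroup G) [hVn : V.Normal] (hA : IsPGroup p A)
    (hcomm : ∀ a ∈ A, ∀ b ∈ A, a * b = b * a) (hB : B ≤ A) (hY : ¬ p ∣ Nat.card Y)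
    (hAY : A ≤ normalizer (Y : Set G)) (hVY : V ≤ Y)
    (ih : (Y.map (QuotientGroup.mk' V)) ⊓ centralizer ((B.map (QuotientGroup.mk' V) : Subgroup (G ⧸ V)) : Set (G ⧸ V)) ≤
      XX (A.map (QuotientGroup.mk' V)) (B.map (QuotientGroup.mk' V)) (Y.map (QuotientGroup.mk' V))) :
    Y ⊓ centralizer (B : Set G) ≤ XX A B Y ⊔ V := by
  let q : G →* G ⧸ V := QuotientGroup.mk' V
  have hq1 : ∀ g, q g = 1 ↔ g ∈ V := fun g => QuotientGroup.eq_one_iff g
  have hker : q.ker = V := QuotientGroup.ker_mk' V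
  have hcommq : ∀ a ∈ B.map q, ∀ b ∈ B.map q, a * b = b * a := by
    rintro _ ⟨a, ha, rfl⟩ _ ⟨b, hb, rfl⟩
    rw [← map_mul, ← map_mul, hcomm a (hB ha) b (hB hb)]
  have hcop : ∀ D K : Subgroup G, D ≤ A → K ≤ Y → (Nat.card D).Coprime (Nat.card K) := by
    intro D K hD hK
    exact GenSub.coprime_of_isPGroup (hA.to_le hD) (fun h => hY (h.trans (Subgroup.card_dvd_of_le hK)))
  have hsolv : ∀ D : Subgroup G, D ≤ A → Group.IsSolvable D := fun D hD =>
    GenSub.isSolvable_of_isPGroup (hA.to_le hD)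
  -- it suffices to work in the quotient
  have hmain : XX (A.map q) (B.map q) (Y.map q) ≤ (XX A B Y).map q := by
    refine iSup_le ?_
    rintro ⟨C, hCB, c, hc, hBC⟩
    obtain ⟨b, hb, rfl⟩ := hc
    -- the preimage of C in B
    let B₀ : Subgroup G := B ⊓ C.comap q
    have hB₀B : B₀ ≤ B := inf_le_left
    have hB₀q : B₀.map q = C := by
      apply le_antisymm
      · rintro _ ⟨x, hx, rfl⟩
        exact hx.2
      · intro y hy
        obtain ⟨x, hx, rfl⟩ := hCB hy
        exact ⟨x, mem_inf.mpr ⟨hx, hy⟩, rfl⟩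
    have hCn : zpowers (q b) ≤ normalizer (C : Set (G ⧸ V)) :=
      (zpowers_le (H := normalizer (C : Set (G ⧸ V)))).mpr
        (le_normalizer_of_comm hcommq hCB (mem_map_of_mem q hb))
    have hcyc : Cyc B B₀ := by
      refine ⟨hB₀B, b, hb, fun x hx => ?_⟩
      obtain ⟨y, hy, z, hz, hyz⟩ := (mem_sup_of_le_normalizer' hCn).mp (hBC (mem_map_of_mem q hx))
      obtain ⟨k, rfl⟩ := mem_zpowers_iff.mp hz
      have h1 : x * (b ^ k)⁻¹ ∈ B₀ := by
        refine mem_inf.mpr ⟨B.mul_mem hx (B.inv_mem (B.zpow_mem hb k)), ?_⟩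
        rw [mem_comap, map_mul, map_inv, map_zpow, ← show y * q b ^ k = q x from hyz,
          mul_inv_cancel_right]
        exact hy
      have h3 : x = (x * (b ^ k)⁻¹) * b ^ k := by group
      rw [h3]
      exact mul_mem_sup h1 ⟨k, rfl⟩
    -- centralizers
    have hcent : ∀ D : Subgroup G, D ≤ A → (Y.map q) ⊓ centralizer ((D.map q : Subgroup (G ⧸ V)) : Set (G ⧸ V)) =
        (Y ⊓ centralizer (D : Set G)).map q := fun D hD =>
      map_inf_centralizer D Y V (hD.trans hAY) (hcop D V hD hVY) (Or.inl (hsolv D hD)) hVY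
    show (Y.map q) ⊓ centralizer ((B.map q : Subgroup (G ⧸ V)) : Set (G ⧸ V)) ⊓
      ⁅(Y.map q) ⊓ centralizer (C : Set (G ⧸ V)), A.map q⁆ ≤ _
    rw [← hB₀q, hcent B₀ (hB₀B.trans hB), ← Subgroup.map_commutator]
    rintro y ⟨⟨-, hy1⟩, ⟨k, hk, rfl⟩⟩
    set K₀ : Subgroup G := ⁅Y ⊓ centralizer (B₀ : Set G), A⁆ with hK₀
    have hAYB : A ≤ normalizer ((Y ⊓ centralizer (B₀ : Set G) : Subgroup G) : Set G) :=
      le_normalizer_inf hAY (le_normalizer_centralizer (le_normalizer_of_comm hcomm (hB₀B.trans hB)))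
    have hAK₀ : A ≤ normalizer (K₀ : Set G) := le_normalizer_commutator_right _ _
    have hK₀Y : K₀ ≤ Y := (commutator_le_left hAYB).trans inf_le_left
    obtain ⟨c, hc, hcN⟩ := exists_fixed_of_coset_fixed B K₀ (hB.trans hAK₀) (hcop B K₀ hB hK₀Y)
      (Or.inl (hsolv B hB)) (K₀ ⊓ V) inf_le_left
      (le_normalizer_inf le_normalizer (by rw [normalizer_eq_top]; exact le_top))
      (le_normalizer_inf (hB.trans hAK₀) (by rw [normalizer_eq_top]; exact le_top)) k hk
      (by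
        intro a ha
        refine mem_inf.mpr ⟨?_, ?_⟩
        · exact K₀.mul_mem (conj_mem_of_le_normalizer (hB.trans hAK₀) ha hk) (K₀.inv_mem hk)
        · rw [← hq1, map_mul, map_mul, map_mul, map_inv, map_inv,
            mem_centralizer_iff.mp hy1 (q a) ⟨a, ha, rfl⟩]
          group)
    have hqc : q k = q c := by
      have h1 := (hq1 _).mpr hcN.2
      rw [map_mul, map_inv] at h1
      exact inv_mul_eq_one.mp h1
    rw [hqc]
    exact ⟨c, le_XX hcyc (mem_inf.mpr ⟨mem_inf.mpr ⟨hK₀Y hc.1, hc.2⟩, hc.1⟩), rfl⟩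
  intro g hg
  have h1 : q g ∈ (XX A B Y).map q := by
    apply hmain
    apply ih
    refine mem_inf.mpr ⟨⟨g, hg.1, rfl⟩, ?_⟩
    rw [mem_centralizer_iff]
    rintro _ ⟨b, hb, rfl⟩
    rw [← map_mul, mem_centralizer_iff.mp hg.2 b hb, map_mul]
  obtain ⟨x, hx, hxg⟩ := h1
  have h2 : x⁻¹ * g ∈ V := by rw [← hq1, map_mul, map_inv, hxg, inv_mul_cancel]
  have h3 : g = x * (x⁻¹ * g) := by group
  rw [h3]
  exact mul_mem_sup hx h2

end quot

theorem XX_map_le {H A B Y : Subgroup G} (hYH : Y ≤ H) (hAH : A ≤ H) (hBH : B ≤ H) :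
    (XX (A.subgroupOf H) (B.subgroupOf H) (Y.subgroupOf H)).map H.subtype ≤ XX A B Y := by
  rw [XX, Subgroup.map_iSup]
  refine iSup_le ?_
  rintro ⟨C, hCB, c, hc, hBC⟩
  have hBm : (B.subgroupOf H).map H.subtype = B := map_subgroupOf_eq_of_le hBH
  have hAm : (A.subgroupOf H).map H.subtype = A := map_subgroupOf_eq_of_le hAH
  have hYm : (Y.subgroupOf H).map H.subtype = Y := map_subgroupOf_eq_of_le hYH
  have hcyc : Cyc B (C.map H.subtype) := by
    refine ⟨?_, c, hc, ?_⟩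
    · rw [← hBm]; exact Subgroup.map_mono hCB
    · have h1 := Subgroup.map_mono (f := H.subtype) hBC
      rw [hBm, Subgroup.map_sup, MonoidHom.map_zpowers] at h1
      exact h1
  refine le_trans ?_ (le_XX hcyc)
  rintro _ ⟨g, ⟨⟨hgY, hgB⟩, hg⟩, rfl⟩
  refine mem_inf.mpr ⟨mem_inf.mpr ⟨hgY, ?_⟩, ?_⟩
  · rw [mem_centralizer_iff]
    intro b hb
    exact congrArg Subtype.val (mem_centralizer_iff.mp hgB ⟨b, hBH hb⟩ hb)
  · have h1 : H.subtype g ∈ (⁅Y.subgroupOf H ⊓ centralizer (C : Set H), A.subgroupOf H⁆).map H.subtype :=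
      ⟨g, hg, rfl⟩
    rw [Subgroup.map_commutator, hAm] at h1
    refine Subgroup.commutator_mono ?_ le_rfl h1
    rintro _ ⟨y, ⟨hy, hyC⟩, rfl⟩
    refine mem_inf.mpr ⟨hy, ?_⟩
    rw [mem_centralizer_iff]
    rintro _ ⟨d, hd, rfl⟩
    exact congrArg Subtype.val (mem_centralizer_iff.mp hyC d hd)

theorem cent_le_map {H B Y : Subgroup G} (hYH : Y ≤ H) :
    Y ⊓ centralizer (B : Set G) ≤
      (Y.subgroupOf H ⊓ centralizer ((B.subgroupOf H : Subgroup H) : Set H)).map H.subtype := by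
  intro g hg
  refine ⟨⟨g, hYH hg.1⟩, ?_, rfl⟩
  refine mem_inf.mpr ⟨hg.1, ?_⟩
  rw [mem_centralizer_iff]
  intro b hb
  exact Subtype.ext (mem_centralizer_iff.mp hg.2 (b : G) hb)

/-- the hypothesis -/
structure Hy (p : ℕ) (A B Y : Subgroup G) : Prop where
  pgroup : IsPGroup p A
  comm : ∀ a ∈ A, ∀ b ∈ A, a * b = b * a
  le : B ≤ A
  solv : Group.IsSolvable Y
  prime : ¬ p ∣ Nat.card Y
  norm : A ≤ normalizer (Y : Set G)
  eq : ⁅Y, A⁆ = Y

/-- the induction hypothesis -/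
def IH (p n : ℕ) : Prop := ∀ (G : Type u) [Group G] [Finite G] (A B Y : Subgroup G), Hy p A B Y →
  Nat.card Y < n → Y ⊓ centralizer (B : Set G) ≤ XX A B Y

variable {p : ℕ}

theorem Hy.cop [Finite G] [hp : Fact p.Prime] {A B Y : Subgroup G} (h : Hy p A B Y) {D K : Subgroup G} (hD : D ≤ A)
    (hK : K ≤ Y) : (Nat.card D).Coprime (Nat.card K) :=
  GenSub.coprime_of_isPGroup (h.pgroup.to_le hD) (fun h' => h.prime (h'.trans (Subgroup.card_dvd_of_le hK)))

theorem Hy.asolv [Finite G] [hp : Fact p.Prime] {A B Y : Subgroup G} (h : Hy p A B Y) {D : Subgroup G} (hD : D ≤ A) :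
    Group.IsSolvable D := GenSub.isSolvable_of_isPGroup (h.pgroup.to_le hD)

/-- `[K, A]` for `A`-invariant `K ≤ Y` -/
theorem Hy.sub [Finite G] [hp : Fact p.Prime] {A B Y : Subgroup G} (h : Hy p A B Y) {K : Subgroup G} (hK : K ≤ Y)
    (hAK : A ≤ normalizer (K : Set G)) : Hy p A B ⁅K, A⁆ := by
  have hle : ⁅K, A⁆ ≤ K := commutator_le_left hAK
  exact ⟨h.pgroup, h.comm, h.le, isSolvable_of_le (hle.trans hK) h.solv,
    fun h' => h.prime (h'.trans (Subgroup.card_dvd_of_le (hle.trans hK))),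
    le_normalizer_commutator_right _ _,
    commutator_commutator_eq A K hAK (h.cop le_rfl hK) (Or.inl (h.asolv le_rfl))⟩

theorem Hy.subgroupOf [Finite G] {A B Y H : Subgroup G} (h : Hy p A B Y) (hYH : Y ≤ H) (hAH : A ≤ H) :
    Hy p (A.subgroupOf H) (B.subgroupOf H) (Y.subgroupOf H) := by
  refine ⟨h.pgroup.comap_subtype, ?_, Subgroup.comap_mono h.le, ?_, ?_, ?_, ?_⟩
  · intro a ha b hb
    exact Subtype.ext (h.comm _ ha _ hb)
  · have := h.solv
    exact Group.isSolvable_of_isSolvable_injective (f := (Subgroup.subgroupOfEquivOfLe hYH).toMonoidHom)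
      (Subgroup.subgroupOfEquivOfLe hYH).injective
  · rw [Nat.card_congr (Subgroup.subgroupOfEquivOfLe hYH).toEquiv]; exact h.prime
  · intro a ha
    rw [mem_normalizer_iff]
    intro g
    exact mem_normalizer_iff.mp (h.norm ha) (g : G)
  · apply Subgroup.map_injective H.subtype_injective
    rw [Subgroup.map_commutator, map_subgroupOf_eq_of_le hYH, map_subgroupOf_eq_of_le hAH, h.eq]

theorem Hy.map [Finite G] {A B Y : Subgroup G} (h : Hy p A B Y) {G' : Type*} [Group G'] (q : G →* G') :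
    Hy p (A.map q) (B.map q) (Y.map q) := by
  refine ⟨h.pgroup.map q, ?_, Subgroup.map_mono h.le, ?_, ?_, ?_, ?_⟩
  · rintro _ ⟨a, ha, rfl⟩ _ ⟨b, hb, rfl⟩
    rw [← map_mul, ← map_mul, h.comm a ha b hb]
  · have := h.solv
    exact Group.isSolvable_of_surjective (f := q.subgroupMap Y) (q.subgroupMap_surjective Y)
  · exact fun h' => h.prime (h'.trans (Subgroup.card_map_dvd _ _))
  · exact (Subgroup.map_mono h.norm).trans (Subgroup.le_normalizer_map q)
  · rw [← Subgroup.map_commutator, h.eq]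

section main

variable [Finite G] [hp : Fact p.Prime] {A B Y : Subgroup G}

theorem Hy.quot (h : Hy p A B Y) (ih : IH.{u} p (Nat.card Y)) {V : Subgroup G} (hVY : V ≤ Y) (hV : V ≠ ⊥)
    (hYV : Y ≤ normalizer (V : Set G)) (hAV : A ≤ normalizer (V : Set G)) :
    Y ⊓ centralizer (B : Set G) ≤ XX A B Y ⊔ V := by
  set H : Subgroup G := Y ⊔ A with hH
  have hYH : Y ≤ H := le_sup_left
  have hAH : A ≤ H := le_sup_right
  have hVn : (V.subgroupOf H).Normal :=
    (normal_subgroupOf_iff_le_normalizer (hVY.trans hYH)).mpr (sup_le hYV hAV)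
  have h' := h.subgroupOf hYH hAH
  have hcard : Nat.card ((Y.subgroupOf H).map (QuotientGroup.mk' (V.subgroupOf H))) < Nat.card Y := by
    have h1 := H1.Cores.card_map_mk' (V.subgroupOf H) (Y.subgroupOf H) (Subgroup.comap_mono hVY)
    rw [Nat.card_congr (Subgroup.subgroupOfEquivOfLe hYH).toEquiv,
      Nat.card_congr (Subgroup.subgroupOfEquivOfLe (hVY.trans hYH)).toEquiv] at h1
    have h2 : 1 < Nat.card V := by
      rw [Subgroup.one_lt_card_iff_ne_bot]; exact hV
    have h3 : 0 < Nat.card ((Y.subgroupOf H).map (QuotientGroup.mk' (V.subgroupOf H))) := Nat.card_pos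
    nlinarith
  have h2 := quot_step (p := p) (A.subgroupOf H) (B.subgroupOf H) (Y.subgroupOf H) (V.subgroupOf H)
    h'.pgroup h'.comm h'.le h'.prime h'.norm (Subgroup.comap_mono hVY)
    (ih _ _ _ _ (h'.map _) hcard)
  refine (cent_le_map hYH).trans ((Subgroup.map_mono h2).trans ?_)
  rw [Subgroup.map_sup, map_subgroupOf_eq_of_le (hVY.trans hYH)]
  exact sup_le_sup_right (XX_map_le hYH hAH (h.le.trans hAH)) _

theorem Hy.key (h : Hy p A B Y) (ih : IH.{u} p (Nat.card Y)) {V : Subgroup G} (hVY : V ≤ Y) (hV : V ≠ ⊥)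
    (hYV : Y ≤ normalizer (V : Set G)) (hAV : A ≤ normalizer (V : Set G))
    (hVC : V ⊓ centralizer (A : Set G) ≤ XX A B Y) : Y ⊓ centralizer (B : Set G) ≤ XX A B Y := by
  intro g hg
  obtain ⟨x, hx, v, hv, rfl⟩ := (mem_sup_of_le_normalizer ((XX_le.trans inf_le_left).trans hYV)).mp
    (h.quot ih hVY hV hYV hAV hg)
  have hvB : v ∈ V ⊓ centralizer (B : Set G) := by
    refine mem_inf.mpr ⟨hv, ?_⟩
    have h1 : v = x⁻¹ * (x * v) := by group
    rw [h1]
    exact mul_mem (inv_mem (XX_le hx).2) hg.2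
  have hAN : A ≤ normalizer ((V ⊓ centralizer (B : Set G) : Subgroup G) : Set G) :=
    le_normalizer_inf hAV (le_normalizer_centralizer (le_normalizer_of_comm h.comm h.le))
  obtain ⟨w, hw, c, hc, rfl⟩ := exists_mul_of_mem A (V ⊓ centralizer (B : Set G)) hAN
    (h.cop le_rfl (inf_le_left.trans hVY)) (Or.inl (h.asolv le_rfl)) hvB
  have hwX : w ∈ XX A B Y := by
    apply le_XX (Cyc.self B)
    have h1 := (commutator_le_left hAN) hw
    exact mem_inf.mpr ⟨mem_inf.mpr ⟨hVY h1.1, h1.2⟩,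
      Subgroup.commutator_mono (inf_le_inf_right _ hVY) le_rfl hw⟩
  have hcX : c ∈ XX A B Y := hVC (mem_inf.mpr ⟨hc.1.1, hc.2⟩)
  exact mul_mem hx (mul_mem hwX hcX)

/-- proper invariant subgroups -/
theorem Hy.proper (h : Hy p A B Y) (ih : IH.{u} p (Nat.card Y)) {K : Subgroup G} (hK : K ≤ Y)
    (hAK : A ≤ normalizer (K : Set G)) (hne : ⁅K, A⁆ ≠ Y) :
    ⁅K, A⁆ ⊓ centralizer (B : Set G) ≤ XX A B Y := by
  have hle : ⁅K, A⁆ ≤ Y := (commutator_le_left hAK).trans hK
  have hlt : ⁅K, A⁆ < Y := lt_of_le_of_ne hle hne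
  have h1 : Nat.card (⁅K, A⁆ : Subgroup G) < Nat.card Y := Set.ncard_lt_ncard hlt (Set.toFinite _)
  exact (ih G A B ⁅K, A⁆ (h.sub hK hAK) h1).trans (XX_mono hle)

/-- the case of a `q`-group -/
theorem Hy.qcase (h : Hy p A B Y) (ih : IH.{u} p (Nat.card Y)) {q : ℕ} [hq : Fact q.Prime]
    (hY : IsPGroup q Y) : Y ⊓ centralizer (B : Set G) ≤ XX A B Y := by
  by_cases hY0 : Y = ⊥
  · rw [hY0]; exact inf_le_left.trans bot_le
  set Z : Subgroup G := Y ⊓ centralizer (Y : Set G) with hZ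
  have hZY : Z ≤ Y := inf_le_left
  have hYZ : Y ≤ normalizer (Z : Set G) := le_normalizer_inf le_normalizer (le_normalizer_centralizer le_normalizer)
  have hAZ : A ≤ normalizer (Z : Set G) := le_normalizer_inf h.norm (le_normalizer_centralizer h.norm)
  have hZc : ∀ x ∈ Z, ∀ y ∈ Y, x * y = y * x := fun x hx y hy => (mem_centralizer_iff.mp hx.2 y hy).symm
  by_cases hZA : ⁅Z, A⁆ = ⊥
  · -- Z is centralized by A
    have hZA' : Z ≤ centralizer (A : Set G) := (commutator_eq_bot_iff_le_centralizer).mp hZA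
    -- an element of the second centre
    obtain ⟨n, hnY, hnZ, hn⟩ : ∃ n ∈ Y, n ∉ Z ∧ ∀ y ∈ Y, n * y * n⁻¹ * y⁻¹ ∈ Z := by
      have hZ' : ∀ y : Y, y ∈ center Y ↔ (y : G) ∈ Z := by
        intro y
        rw [mem_center_iff, hZ, mem_inf, mem_centralizer_iff]
        constructor
        · intro h1
          exact ⟨y.2, fun g hg => congrArg Subtype.val (h1 ⟨g, hg⟩)⟩
        · rintro ⟨-, h1⟩ g
          exact Subtype.ext (h1 g g.2)
      have hne : center Y ≠ ⊤ := by
        intro h1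
        have h2 : Y ≤ Z := by
          intro y hy
          have : (⟨y, hy⟩ : Y) ∈ center Y := by rw [h1]; trivial
          exact (hZ' _).mp this
        have h3 : ⁅Y, A⁆ ≤ ⊥ := by
          rw [← hZA]
          exact Subgroup.commutator_mono h2 le_rfl
        rw [h.eq] at h3
        exact hY0 (le_bot_iff.mp h3)
      haveI : Nontrivial (Y ⧸ center Y) := QuotientGroup.nontrivial_iff.2 hne
      haveI := (hY.to_quotient (center Y)).center_nontrivial
      obtain ⟨⟨b, hb⟩, hb1⟩ := exists_ne (1 : Subgroup.center (Y ⧸ center Y))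
      obtain ⟨a, rfl⟩ := QuotientGroup.mk'_surjective (center Y) b
      refine ⟨a, a.2, ?_, ?_⟩
      · intro h1
        apply hb1
        apply Subtype.ext
        exact (QuotientGroup.eq_one_iff a).2 ((hZ' a).mpr h1)
      · intro y hy
        have h1 := (mem_center_iff.1 hb) (QuotientGroup.mk' _ (⟨y, hy⟩ : Y))
        have h2 : QuotientGroup.mk' (center Y) (a * ⟨y, hy⟩ * a⁻¹ * (⟨y, hy⟩ : Y)⁻¹) = 1 := by
          rw [map_mul, map_mul, map_mul, map_inv, map_inv, ← h1]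
          group
        exact (hZ' _).mp ((QuotientGroup.eq_one_iff _).mp h2)
    -- the second centre
    let N : Subgroup G :=
      { carrier := {g | g ∈ Y ∧ ∀ y ∈ Y, g * y * g⁻¹ * y⁻¹ ∈ Z}
        one_mem' := ⟨Y.one_mem, fun y _ => by simp⟩
        mul_mem' := by
          rintro a b ⟨ha, ha'⟩ ⟨hb, hb'⟩
          refine ⟨Y.mul_mem ha hb, fun y hy => ?_⟩
          have e : a * b * y * (a * b)⁻¹ * y⁻¹ = (a * (b * y * b⁻¹ * y⁻¹) * a⁻¹) * (a * y * a⁻¹ * y⁻¹) := by group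
          rw [e]
          exact Z.mul_mem ((mem_normalizer_iff.mp (hYZ ha) _).mp (hb' y hy)) (ha' y hy)
        inv_mem' := by
          rintro a ⟨ha, ha'⟩
          refine ⟨Y.inv_mem ha, fun y hy => ?_⟩
          have e : a⁻¹ * y * a⁻¹⁻¹ * y⁻¹ = a⁻¹ * (a * y * a⁻¹ * y⁻¹)⁻¹ * a⁻¹⁻¹ := by group
          rw [e]
          exact (mem_normalizer_iff.mp (hYZ (Y.inv_mem ha)) _).mp (Z.inv_mem (ha' y hy)) }
    have hNY : N ≤ Y := fun g hg => hg.1
    have hNm : ∀ g, g ∈ N ↔ g ∈ Y ∧ ∀ y ∈ Y, g * y * g⁻¹ * y⁻¹ ∈ Z := fun g => Iff.rfl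
    have hNYZ : ⁅N, Y⁆ ≤ Z := by
      rw [commutator_le]
      intro g hg y hy
      exact hg.2 y hy
    have hAN : A ≤ normalizer (N : Set G) := by
      apply le_normalizer_of_conj_mem
      intro a ha g hg
      refine ⟨(mem_normalizer_iff.mp (h.norm ha) _).mp hg.1, fun y hy => ?_⟩
      have e : a * g * a⁻¹ * y * (a * g * a⁻¹)⁻¹ * y⁻¹ =
        a * (g * (a⁻¹ * y * a) * g⁻¹ * (a⁻¹ * y * a)⁻¹) * a⁻¹ := by group
      rw [e]
      apply (mem_normalizer_iff.mp (hAZ ha) _).mp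
      apply hg.2
      have := (mem_normalizer_iff.mp (h.norm (A.inv_mem ha)) y).mp hy
      rwa [inv_inv] at this
    -- C_N(A) ≤ Z
    have hNAZ : N ⊓ centralizer (A : Set G) ≤ Z := by
      set N₁ := N ⊓ centralizer (A : Set G) with hN₁
      have hN₁A : ⁅A, N₁⁆ = ⊥ := by
        rw [commutator_comm, commutator_eq_bot_iff_le_centralizer]; exact inf_le_right
      have h1 : ⁅⁅Y, A⁆, N₁⁆ = ⊥ := by
        apply Subgroup.commutator_commutator_eq_bot_of_rotate
        · rw [hN₁A, commutator_bot_left]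
        · rw [eq_bot_iff, ← hZA]
          exact Subgroup.commutator_mono ((Subgroup.commutator_mono inf_le_left le_rfl).trans hNYZ) le_rfl
      rw [h.eq, commutator_comm, commutator_eq_bot_iff_le_centralizer] at h1
      exact le_inf (inf_le_left.trans hNY) h1
    -- choose B₀
    obtain ⟨B₀, hB₀, hNB₀⟩ : ∃ B₀, Cyc B B₀ ∧ ¬ N ⊓ centralizer (B₀ : Set G) ≤ Z := by
      by_contra hcon
      push Not at hcon
      have h1 := le_of_cyclic p B N Z (h.pgroup.to_le h.le) (fun a ha b hb => h.comm a (h.le ha) b (h.le hb))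
        (h.le.trans hAN) (fun h' => h.prime (h'.trans (Subgroup.card_dvd_of_le hNY))) hcon
      exact hnZ (h1 ((hNm n).mpr ⟨hnY, hn⟩))
    have hB₀A : B₀ ≤ A := hB₀.1.trans h.le
    set N₀ := N ⊓ centralizer (B₀ : Set G) with hN₀
    set Y₀ := Y ⊓ centralizer (B₀ : Set G) with hY₀
    have hN₀Y₀ : N₀ ≤ Y₀ := inf_le_inf_right _ hNY
    have hAN₀ : A ≤ normalizer (N₀ : Set G) :=
      le_normalizer_inf hAN (le_normalizer_centralizer (le_normalizer_of_comm h.comm hB₀A))
    set S : Subgroup G := ⁅⁅N₀, A⁆, Y₀⁆ with hS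
    have hSZ : S ≤ Z := (Subgroup.commutator_mono ((commutator_le_left hAN₀).trans inf_le_left) inf_le_left).trans hNYZ
    have hSL : S ≤ ⁅Y₀, A⁆ := by
      refine (Subgroup.commutator_mono (Subgroup.commutator_mono hN₀Y₀ le_rfl) le_rfl).trans ?_
      exact commutator_le_left (le_normalizer_commutator_left Y₀ A)
    have hSne : S ≠ ⊥ := by
      intro hS0
      apply hNB₀
      -- N₀ = [N₀, A] C_{N₀}(A) so [N₀, Y₀] = 1
      have h1 : ⁅N₀, Y₀⁆ = ⊥ := by
        rw [← commutator_sup_centralizer A N₀ hAN₀ (h.cop le_rfl (inf_le_left.trans hNY)) (Or.inl (h.asolv le_rfl))]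
        apply commutator_sup_left_eq_bot hS0
        rw [commutator_eq_bot_iff_forall]
        intro x hx y hy
        exact hZc x (hNAZ (mem_inf.mpr ⟨hx.1.1, hx.2⟩)) y hy.1
      have hB₀Y : B₀ ≤ normalizer (Y : Set G) := hB₀A.trans h.norm
      have h2 : ⁅⁅Y, B₀⁆, N₀⁆ = ⊥ := by
        apply Subgroup.commutator_commutator_eq_bot_of_rotate
        · have : ⁅B₀, N₀⁆ = ⊥ := by
            rw [commutator_comm, commutator_eq_bot_iff_le_centralizer]; exact inf_le_right
          rw [this, commutator_bot_left]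
        · rw [eq_bot_iff, ← hZA]
          exact Subgroup.commutator_mono ((Subgroup.commutator_mono inf_le_left le_rfl).trans hNYZ) hB₀A
      have h3 : ⁅N₀, Y⁆ = ⊥ := by
        rw [← commutator_sup_centralizer B₀ Y hB₀Y (h.cop hB₀A le_rfl) (Or.inl (h.asolv hB₀A))]
        apply commutator_sup_right_eq_bot _ h1
        rw [commutator_comm]; exact h2
      exact le_inf (inf_le_left.trans hNY) ((commutator_eq_bot_iff_le_centralizer).mp h3)
    have hSC : S ≤ centralizer (A : Set G) := hSZ.trans hZA'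
    have hSX : S ≤ XX A B Y := by
      refine le_trans ?_ (le_XX hB₀)
      refine le_inf (le_inf (hSZ.trans hZY) (hSC.trans (Subgroup.centralizer_le h.le))) hSL
    refine h.key ih (hSZ.trans hZY) hSne ?_ ?_ (inf_le_left.trans hSX)
    · intro y hy
      rw [mem_normalizer_iff]
      intro s
      constructor
      · intro hs
        rwa [← hZc s (hSZ hs) y hy, mul_inv_cancel_right]
      · intro hs
        have h1 := hZc _ (hSZ hs) y hy
        have h2 : y * s * y⁻¹ = s := by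
          have : y * (y * s * y⁻¹) = y * s := by rw [← h1]; group
          exact mul_left_cancel this
        rwa [h2] at hs
    · rw [← commutator_eq_bot_iff_le_centralizer, commutator_comm,
        commutator_eq_bot_iff_le_centralizer] at hSC
      exact hSC.trans (Subgroup.centralizer_le_normalizer _)
  · have hle : ⁅Z, A⁆ ≤ Z := commutator_le_left hAZ
    refine h.key ih (hle.trans hZY) hZA ?_ (le_normalizer_commutator_right _ _) ?_
    · have h1 : Y ≤ centralizer ((⁅Z, A⁆ : Subgroup G) : Set G) := by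
        intro y hy
        rw [mem_centralizer_iff]
        intro z hz
        exact hZc z (hle hz) y hy
      exact h1.trans (Subgroup.centralizer_le_normalizer _)
    · rw [H66.CopAb.commutator_inf_centralizer A Z (fun x hx y hy => hZc x hx y hy.1) hAZ (h.cop le_rfl hZY)]
      exact bot_le

/-- the generating family -/
def Fam (A B Y : Subgroup G) : Set (Subgroup G) :=
  {L | ∃ s : ℕ, s.Prime ∧ ∃ P, IsSylIn s Y P ∧ A ≤ normalizer (P : Set G) ∧
    ∃ B₀, Cyc B B₀ ∧ L = ⁅P ⊓ centralizer (B₀ : Set G), A⁆}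

theorem Hy.gen (h : Hy p A B Y) : Y ≤ sSup (Fam A B Y) := by
  set Y₀ := sSup (Fam A B Y) with hY₀
  have hAP : ∀ (P B₀ : Subgroup G), A ≤ normalizer (P : Set G) → Cyc B B₀ →
      A ≤ normalizer ((P ⊓ centralizer (B₀ : Set G) : Subgroup G) : Set G) := fun P B₀ h1 h2 =>
    le_normalizer_inf h1 (le_normalizer_centralizer (le_normalizer_of_comm h.comm (h2.1.trans h.le)))
  -- A normalizes Y₀
  have hconj : ∀ g : G, (∀ L ∈ Fam A B Y, MulAut.conj g • L ≤ Y₀) → ∀ y ∈ Y₀, g * y * g⁻¹ ∈ Y₀ := by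
    intro g hg
    have h1 : Y₀ ≤ Y₀.comap (MulAut.conj g).toMonoidHom := by
      refine sSup_le fun L hL y hy => ?_
      apply hg L hL
      rw [H1.SZ.mem_conj_smul]
      change g⁻¹ * (g * y * g⁻¹) * g ∈ L
      have : g⁻¹ * (g * y * g⁻¹) * g = y := by group
      rwa [this]
    exact fun y hy => h1 hy
  have hAY₀ : A ≤ normalizer (Y₀ : Set G) := by
    apply le_normalizer_of_conj_mem
    intro a ha
    apply hconj
    rintro L ⟨s, hs, P, hP, hAP', B₀, hB₀, rfl⟩
    have h1 : A ≤ normalizer ((⁅P ⊓ centralizer (B₀ : Set G), A⁆ : Subgroup G) : Set G) :=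
      le_normalizer_commutator_right _ _
    rw [H1.SZ.conj_smul_eq_of_mem_normalizer (h1 ha)]
    exact le_sSup ⟨s, hs, P, hP, hAP', B₀, hB₀, rfl⟩
  have hCY₀ : Y ⊓ centralizer (A : Set G) ≤ normalizer (Y₀ : Set G) := by
    apply le_normalizer_of_conj_mem
    intro c hc
    apply hconj
    rintro L ⟨s, hs, P, hP, hAP', B₀, hB₀, rfl⟩
    have hcA : MulAut.conj c • A = A := by
      apply H1.SZ.conj_smul_eq_of_mem_normalizer
      exact Subgroup.centralizer_le_normalizer _ hc.2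
    have hcB₀ : MulAut.conj c • B₀ = B₀ := by
      apply H1.SZ.conj_smul_eq_of_mem_normalizer
      exact Subgroup.centralizer_le_normalizer _ (Subgroup.centralizer_le (hB₀.1.trans h.le) hc.2)
    apply le_sSup
    refine ⟨s, hs, MulAut.conj c • P, hP.smul (le_normalizer hc.1), ?_, B₀, hB₀, ?_⟩
    · have h1 := Subgroup.pointwise_smul_le_pointwise_smul_iff (a := MulAut.conj c).mpr hAP'
      rw [hcA] at h1
      refine h1.trans ?_
      rintro x hx
      rw [H1.SZ.mem_conj_smul] at hx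
      rw [mem_normalizer_iff]
      intro y
      rw [H1.SZ.mem_conj_smul, H1.SZ.mem_conj_smul]
      have h2 := mem_normalizer_iff.mp hx (c⁻¹ * y * c)
      have e : c⁻¹ * x * c * (c⁻¹ * y * c) * (c⁻¹ * x * c)⁻¹ = c⁻¹ * (x * y * x⁻¹) * c := by group
      rw [e] at h2
      exact h2
    · rw [H1.SZ.conj_smul_eq_map, Subgroup.map_commutator, ← H1.SZ.conj_smul_eq_map, ← H1.SZ.conj_smul_eq_map,
        hcA, Subgroup.smul_inf]
      congr 2
      -- conj of a centralizer
      ext x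
      rw [H1.SZ.mem_conj_smul, mem_centralizer_iff, mem_centralizer_iff]
      have hcb : ∀ b ∈ B₀, b * c = c * b := fun b hb =>
        mem_centralizer_iff.mp hc.2 b (h.le (hB₀.1 hb))
      constructor
      · intro h1 b hb
        have h2 := h1 b hb
        have h3 := hcb b hb
        calc b * x = b * (c * (c⁻¹ * x * c) * c⁻¹) := by group
          _ = (b * c) * (c⁻¹ * x * c) * c⁻¹ := by group
          _ = c * (b * (c⁻¹ * x * c)) * c⁻¹ := by rw [h3]; group
          _ = x * (c * b * c⁻¹) := by rw [h2]; group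
          _ = x * b := by rw [← h3]; group
      · intro h1 b hb
        have h2 := h1 b hb
        have h3 := hcb b hb
        have h4 : b * c⁻¹ = c⁻¹ * b := by
          calc b * c⁻¹ = c⁻¹ * (c * b) * c⁻¹ := by group
            _ = c⁻¹ * (b * c) * c⁻¹ := by rw [h3]
            _ = c⁻¹ * b := by group
        calc b * (c⁻¹ * x * c) = (b * c⁻¹) * x * c := by group
          _ = c⁻¹ * (b * x) * c := by rw [h4]; group
          _ = c⁻¹ * x * (b * c) := by rw [h2]; group
          _ = c⁻¹ * x * c * b := by rw [h3]; group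
  -- Y = Y₀ C_Y(A)
  have h1 : Y ≤ (Y ⊓ centralizer (A : Set G)) ⊔ Y₀ := by
    apply GenSub.le_of_forall_sylow
    intro s hs
    haveI := Fact.mk hs
    obtain ⟨P, hP, hPA⟩ := exists_invariant_sylow A Y h.norm (h.cop le_rfl le_rfl) (Or.inl (h.asolv le_rfl)) s
    refine ⟨P, hP, ?_⟩
    apply le_of_cyclic p B P _ (h.pgroup.to_le h.le) (fun a ha b hb => h.comm a (h.le ha) b (h.le hb))
      (h.le.trans hPA) (fun h' => h.prime (h'.trans (Subgroup.card_dvd_of_le hP.1)))
    intro B₀ hB₀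
    rw [← commutator_sup_centralizer A (P ⊓ centralizer (B₀ : Set G)) (hAP P B₀ hPA hB₀)
      (h.cop le_rfl (inf_le_left.trans hP.1)) (Or.inl (h.asolv le_rfl))]
    refine sup_le ?_ ?_
    · have hm : ⁅P ⊓ centralizer (B₀ : Set G), A⁆ ∈ Fam A B Y := ⟨s, hs, P, hP, hPA, B₀, hB₀, rfl⟩
      exact (le_sSup hm).trans le_sup_right
    · exact le_trans (inf_le_inf_right _ (inf_le_left.trans hP.1)) le_sup_left
  conv_lhs => rw [← h.eq]
  rw [commutator_le]
  intro y hy a ha
  obtain ⟨c, hc, y₀, hy₀, rfl⟩ := (mem_sup_of_le_normalizer hCY₀).mp (h1 hy)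
  have hca : a * c = c * a := mem_centralizer_iff.mp hc.2 a ha
  have e : ⁅c * y₀, a⁆ = c * (y₀ * (a * y₀⁻¹ * a⁻¹)) * c⁻¹ := by
    have h3 : c⁻¹ * a⁻¹ = a⁻¹ * c⁻¹ := by rw [← mul_inv_rev, ← mul_inv_rev, hca]
    rw [commutatorElement_def]
    calc c * y₀ * a * (c * y₀)⁻¹ * a⁻¹ = c * y₀ * a * y₀⁻¹ * (c⁻¹ * a⁻¹) := by group
      _ = _ := by rw [h3]; group
  rw [e]
  apply (mem_normalizer_iff.mp (hCY₀ hc) _).mp
  exact Y₀.mul_mem hy₀ ((mem_normalizer_iff.mp (hAY₀ ha) _).mp (Y₀.inv_mem hy₀))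

/-- `[Q, Q] ≤ [Q, A] [C, C]` when `Q = [Q, A] C`, `C ≤ N([Q,A])` -/
theorem comm_le_aux {L C Q : Subgroup G} (hQ : ∀ x ∈ Q, ∃ l ∈ L, ∃ c ∈ C, x = l * c)
    (hQL : Q ≤ normalizer (L : Set G)) (hCQ : C ≤ Q) : ⁅Q, Q⁆ ≤ L ⊔ ⁅C, C⁆ := by
  rw [commutator_le]
  intro x hx z hz
  obtain ⟨l, hl, c, hc, rfl⟩ := hQ x hx
  obtain ⟨m, hm, d, hd, rfl⟩ := hQ z hz
  have hLT : L ≤ L ⊔ ⁅C, C⁆ := le_sup_left
  have hCT : ⁅C, C⁆ ≤ L ⊔ ⁅C, C⁆ := le_sup_right
  have hLc : ∀ a ∈ L, ∀ b ∈ Q, ⁅a, b⁆ ∈ L := by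
    intro a ha b hb
    rw [commutatorElement_def]
    have h1 : a * b * a⁻¹ * b⁻¹ = a * (b * a⁻¹ * b⁻¹) := by group
    rw [h1]
    exact L.mul_mem ha ((mem_normalizer_iff.mp (hQL hb) _).mp (L.inv_mem ha))
  have hLc' : ∀ a ∈ L, ∀ b ∈ Q, ⁅b, a⁆ ∈ L := by
    intro a ha b hb
    rw [← commutatorElement_inv]
    exact L.inv_mem (hLc a ha b hb)
  rw [commutatorElement_mul_left]
  refine mul_mem ?_ (hLT (hLc l hl _ hz))
  refine mul_mem (mul_mem (hLT hl) ?_) (inv_mem (hLT hl))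
  have e : ⁅c, m * d⁆ = ⁅c, m⁆ * (m * ⁅c, d⁆ * m⁻¹) := by
    simp only [commutatorElement_def]; group
  rw [e]
  exact mul_mem (hLT (hLc' m hm c (hCQ hc)))
    (mul_mem (mul_mem (hLT hm) (hCT (Subgroup.commutator_mem_commutator hc hd))) (inv_mem (hLT hm)))

/-- the central case -/
theorem Hy.central (h : Hy p A B Y) (ih : IH.{u} p (Nat.card Y)) {q : ℕ} [hq : Fact q.Prime]
    (hnq : ¬ IsPGroup q Y) {V : Subgroup G} (hVY : V ≤ Y) (hV0 : V ≠ ⊥) (hVq : IsPGroup q V)
    (hVY1 : ⁅V, Y⁆ = ⊥) (hVA : ⁅V, A⁆ = ⊥) : V ≤ XX A B Y := by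
  intro v hv
  have hYV : Y ≤ normalizer (V : Set G) := by
    have h1 : Y ≤ centralizer (V : Set G) := by
      rw [← commutator_eq_bot_iff_le_centralizer, commutator_comm]; exact hVY1
    exact h1.trans (Subgroup.centralizer_le_normalizer _)
  have hAV : A ≤ normalizer (V : Set G) := by
    have h1 : A ≤ centralizer (V : Set G) := by
      rw [← commutator_eq_bot_iff_le_centralizer, commutator_comm]; exact hVA
    exact h1.trans (Subgroup.centralizer_le_normalizer _)
  have hVcY : ∀ x ∈ V, ∀ y ∈ Y, x * y = y * x := commutator_eq_bot_iff_forall.mp hVY1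
  have hVcA : ∀ x ∈ V, ∀ y ∈ A, x * y = y * x := commutator_eq_bot_iff_forall.mp hVA
  obtain ⟨Q, hQ, hVQ, hAQ⟩ := exists_invariant_sylow_ge A Y h.norm (h.cop le_rfl le_rfl) (Or.inl (h.asolv le_rfl)) q
    V hVY hVq hAV
  have hqY : q ∣ Nat.card Y := by
    obtain ⟨n, hn⟩ := IsPGroup.iff_card.mp hVq
    have h1 : n ≠ 0 := by
      rintro rfl
      rw [pow_zero] at hn
      exact hV0 (Subgroup.card_eq_one.mp hn)
    exact ((dvd_pow_self q h1).trans (hn ▸ dvd_rfl)).trans (Subgroup.card_dvd_of_le hVY)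
  have hqp : q ≠ p := fun h1 => h.prime (h1 ▸ hqY)
  -- Q is a Sylow subgroup of H = Y A
  set H : Subgroup G := Y ⊔ A with hH
  have hYH : Y ≤ H := le_sup_left
  have hAH : A ≤ H := le_sup_right
  have hQH : Q ≤ H := hQ.1.trans hYH
  have hcardH : Nat.card H = Nat.card A * Nat.card Y := by
    have h1 := H3.CardSup.card_sup_mul_card_inf A Y h.norm
    have h2 : A ⊓ Y = ⊥ := (Subgroup.disjoint_of_coprime_natCard (h.cop le_rfl le_rfl)).eq_bot
    rw [h2, Subgroup.card_bot, mul_one, sup_comm] at h1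
    exact h1
  have hfac : (Nat.card H).factorization q = (Nat.card Y).factorization q := by
    obtain ⟨m, hm⟩ := IsPGroup.iff_card.mp h.pgroup
    rw [hcardH, Nat.factorization_mul Nat.card_pos.ne' Nat.card_pos.ne', Finsupp.add_apply, hm,
      Nat.factorization_eq_zero_of_not_dvd, zero_add]
    intro h1
    exact hqp ((Nat.prime_dvd_prime_iff_eq hq.out hp.out).mp (hq.out.dvd_of_dvd_pow h1))
  let P : Sylow q H := Sylow.ofCard (Q.subgroupOf H) (by
    rw [H1.SZ.card_subgroupOf_of_le hQH, hQ.2, hfac])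
  have hP : (P : Subgroup H) = Q.subgroupOf H := Sylow.coe_ofCard _ _
  have hvH : v ∈ H := hYH (hVY hv)
  have hvP : (⟨v, hvH⟩ : H) ∈ P := by
    have : (⟨v, hvH⟩ : H) ∈ (P : Subgroup H) := by rw [hP]; exact hVQ hv
    exact this
  have hvc : (⟨v, hvH⟩ : H) ∈ center H := by
    rw [mem_center_iff]
    intro g
    apply Subtype.ext
    change (g : G) * v = v * g
    have h1 : H ≤ centralizer ({v} : Set G) := by
      refine sup_le ?_ ?_
      · intro y hy; rw [mem_centralizer_singleton_iff]; exact (hVcY v hv y hy).symm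
      · intro y hy; rw [mem_centralizer_singleton_iff]; exact (hVcA v hv y hy).symm
    exact mem_centralizer_singleton_iff.mp (h1 g.2)
  have hvd : (⟨v, hvH⟩ : H) ∈ commutator H := by
    have h1 : v ∈ (commutator H).map H.subtype := by
      rw [Subgroup.map_subtype_commutator]
      have h2 : v ∈ ⁅Y, A⁆ := by rw [h.eq]; exact hVY hv
      exact Subgroup.commutator_mono hYH hAH h2
    obtain ⟨w, hw, hwv⟩ := h1
    have : w = ⟨v, hvH⟩ := Subtype.ext hwv
    rwa [← this]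
  have hvQ : v ∈ ⁅Q, Q⁆ := by
    have h1 := H3.TransferCenter.mem_commutator P hvc hvd hvP
    have h2 : (⟨v, hvH⟩ : H) ∈ (commutator P).map (P : Subgroup H).subtype := ⟨_, h1, rfl⟩
    rw [Subgroup.map_subtype_commutator, hP] at h2
    have h3 : v ∈ (⁅Q.subgroupOf H, Q.subgroupOf H⁆).map H.subtype := ⟨_, h2, rfl⟩
    rwa [Subgroup.map_commutator, map_subgroupOf_eq_of_le hQH] at h3
  -- decomposition
  set L : Subgroup G := ⁅Q, A⁆ with hL
  set C : Subgroup G := Q ⊓ centralizer (A : Set G) with hC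
  have hLQ : L ≤ Q := commutator_le_left hAQ
  have hQL : Q ≤ normalizer (L : Set G) := le_normalizer_commutator_left Q A
  have hQdec : ∀ x ∈ Q, ∃ l ∈ L, ∃ c ∈ C, x = l * c := fun x hx =>
    exists_mul_of_mem A Q hAQ (h.cop le_rfl hQ.1) (Or.inl (h.asolv le_rfl)) hx
  have h1 := comm_le_aux hQdec hQL inf_le_left hvQ
  have hCQ : C ≤ Q := inf_le_left
  have hCC : ⁅C, C⁆ ≤ C := Subgroup.commutator_le_self C
  obtain ⟨l, hl, c, hc, hlc⟩ := (mem_sup_of_le_normalizer' ((hCC.trans hCQ).trans hQL)).mp h1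
  have hvA : v ∈ centralizer (A : Set G) := by
    rw [mem_centralizer_iff]; exact fun a ha => (hVcA v hv a ha).symm
  have hlX : l ∈ XX A B Y := by
    have hlA : l ∈ centralizer (A : Set G) := by
      have : l = v * c⁻¹ := by rw [← hlc]; group
      rw [this]
      exact mul_mem hvA (inv_mem (hCC hc).2)
    have hne : ⁅Q, A⁆ ≠ Y := by
      intro h2
      apply hnq
      have h3 : Y ≤ Q := h2 ▸ hLQ
      exact hQ.isPGroup.to_le h3
    exact h.proper ih hQ.1 hAQ hne (mem_inf.mpr ⟨hl, Subgroup.centralizer_le h.le hlA⟩)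
  have hcX : c ∈ XX A B Y := by
    have h2 : C ≤ XX A B Y ⊔ V := by
      refine le_trans ?_ (h.quot ih hVY hV0 hYV hAV)
      exact inf_le_inf hQ.1 (Subgroup.centralizer_le h.le)
    have hXV : XX A B Y ≤ normalizer (V : Set G) := (XX_le.trans inf_le_left).trans hYV
    have h3 : ⁅C, C⁆ ≤ XX A B Y := by
      rw [commutator_le]
      intro x hx y hy
      obtain ⟨x₁, hx₁, w₁, hw₁, rfl⟩ := (mem_sup_of_le_normalizer hXV).mp (h2 hx)
      obtain ⟨x₂, hx₂, w₂, hw₂, rfl⟩ := (mem_sup_of_le_normalizer hXV).mp (h2 hy)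
      have hX := (XX_le (A := A) (B := B) (Y := Y)).trans inf_le_left
      have hw₁c : ∀ y ∈ Y, w₁ * y = y * w₁ := hVcY w₁ hw₁
      have hw₂c : ∀ y ∈ Y, w₂ * y = y * w₂ := hVcY w₂ hw₂
      have e : ⁅x₁ * w₁, x₂ * w₂⁆ = ⁅x₁, x₂⁆ := by
        simp only [commutatorElement_def]
        calc x₁ * w₁ * (x₂ * w₂) * (x₁ * w₁)⁻¹ * (x₂ * w₂)⁻¹
            = x₁ * (w₁ * (x₂ * w₂)) * w₁⁻¹ * x₁⁻¹ * w₂⁻¹ * x₂⁻¹ := by group
          _ = x₁ * x₂ * (w₂ * x₁⁻¹) * w₂⁻¹ * x₂⁻¹ := by
              rw [hw₁c _ (Y.mul_mem (hX hx₂) (hVY hw₂))]; group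
          _ = x₁ * x₂ * x₁⁻¹ * x₂⁻¹ := by rw [hw₂c _ (Y.inv_mem (hX hx₁))]; group
      rw [e, commutatorElement_def]
      exact mul_mem (mul_mem (mul_mem hx₁ hx₂) (inv_mem hx₁)) (inv_mem hx₂)
    exact h3 hc
  rw [← hlc]
  exact mul_mem hlX hcX

theorem Hy.main (h : Hy p A B Y) (ih : IH.{u} p (Nat.card Y)) : Y ⊓ centralizer (B : Set G) ≤ XX A B Y := by
  classical
  by_cases hqY : ∃ q : ℕ, q.Prime ∧ IsPGroup q Y
  · obtain ⟨q, hq, hqY⟩ := hqY
    haveI := Fact.mk hq
    exact h.qcase ih hqY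
  push Not at hqY
  have hY0 : Y ≠ ⊥ := by
    rintro rfl
    exact hqY 2 Nat.prime_two IsPGroup.of_bot
  -- minimal normal subgroup
  obtain ⟨V, ⟨hV0, hVY, hYV, hAV⟩, hmin⟩ := (Set.toFinite {V : Subgroup G | V ≠ ⊥ ∧ V ≤ Y ∧
    Y ≤ normalizer (V : Set G) ∧ A ≤ normalizer (V : Set G)}).exists_minimal
    ⟨Y, hY0, le_rfl, le_normalizer, h.norm⟩
  have hVmin : ∀ U : Subgroup G, U ≤ V → Y ≤ normalizer (U : Set G) → A ≤ normalizer (U : Set G) →
      U = ⊥ ∨ U = V := by
    intro U hUV hYU hAU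
    by_cases hU : U = ⊥
    · exact Or.inl hU
    · exact Or.inr (le_antisymm hUV (hmin ⟨hU, hUV.trans hVY, hYU, hAU⟩ hUV))
  -- V is abelian
  have hVV : ⁅V, V⁆ = ⊥ := by
    rcases hVmin ⁅V, V⁆ (Subgroup.commutator_le_self V) (le_normalizer_commutator hYV hYV)
      (le_normalizer_commutator hAV hAV) with h1 | h1
    · exact h1
    · exfalso
      haveI : Nontrivial V := (Subgroup.nontrivial_iff_ne_bot V).mpr hV0
      haveI : Group.IsSolvable V := isSolvable_of_le hVY h.solv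
      have h2 : commutator V < ⊤ := Group.IsSolvable.commutator_lt_top_of_nontrivial V
      have h3 : (commutator V).map V.subtype < (⊤ : Subgroup V).map V.subtype :=
        (Subgroup.map_lt_map_iff_of_injective V.subtype_injective).mpr h2
      rw [← MonoidHom.range_eq_map, V.range_subtype, Subgroup.map_subtype_commutator] at h3
      exact h3.ne h1
  have hVc : ∀ x ∈ V, ∀ y ∈ V, x * y = y * x := commutator_eq_bot_iff_forall.mp hVV
  -- elementary abelian
  obtain ⟨q, hq, hqV⟩ : ∃ q : ℕ, q.Prime ∧ q ∣ Nat.card V := by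
    apply Nat.exists_prime_and_dvd
    intro h1
    exact hV0 (Subgroup.card_eq_one.mp h1)
  haveI := Fact.mk hq
  have hVexp : ∀ v ∈ V, v ^ q = 1 := by
    let U : Subgroup G :=
      { carrier := {v | v ∈ V ∧ v ^ q = 1}
        one_mem' := ⟨V.one_mem, one_pow _⟩
        mul_mem' := by
          rintro a b ⟨ha, ha'⟩ ⟨hb, hb'⟩
          refine ⟨V.mul_mem ha hb, ?_⟩
          rw [(show Commute a b from hVc a ha b hb).mul_pow, ha', hb', mul_one]
        inv_mem' := by
          rintro a ⟨ha, ha'⟩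
          exact ⟨V.inv_mem ha, by rw [inv_pow, ha', inv_one]⟩ }
    have hUm : ∀ v, v ∈ U ↔ v ∈ V ∧ v ^ q = 1 := fun v => Iff.rfl
    have hUn : ∀ K : Subgroup G, K ≤ normalizer (V : Set G) → K ≤ normalizer (U : Set G) := by
      intro K hK
      apply le_normalizer_of_conj_mem
      intro k hk v hv
      rw [hUm] at hv ⊢
      exact ⟨(mem_normalizer_iff.mp (hK hk) _).mp hv.1, by rw [conj_pow, hv.2, mul_one, mul_inv_cancel]⟩
    rcases hVmin U (fun v hv => hv.1) (hUn Y hYV) (hUn A hAV) with h1 | h1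
    · exfalso
      obtain ⟨v, hv⟩ := exists_prime_orderOf_dvd_card' (G := V) q hqV
      have h2 : (v : G) ∈ U := ⟨v.2, by
        have := pow_orderOf_eq_one v
        rw [hv] at this
        exact congrArg Subtype.val this⟩
      rw [h1, mem_bot] at h2
      have h3 : v = 1 := Subtype.ext h2
      rw [h3, orderOf_one] at hv
      exact hq.one_lt.ne hv
    · intro v hv
      rw [← h1] at hv
      exact hv.2
  have hVq : IsPGroup q V := fun v => ⟨1, by
    apply Subtype.ext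
    rw [pow_one]
    exact hVexp v v.2⟩
  have hAVc : ∀ D : Subgroup G, D ≤ A → ⁅V, D⁆ ⊓ centralizer (D : Set G) = ⊥ := fun D hD =>
    H66.CopAb.commutator_inf_centralizer D V hVc (hD.trans hAV) (h.cop hD hVY)
  by_cases hVY1 : ⁅V, Y⁆ = ⊥
  · have hYcV : Y ≤ centralizer (V : Set G) := by
      rw [← commutator_eq_bot_iff_le_centralizer, commutator_comm]; exact hVY1
    have hYVA : Y ≤ normalizer ((⁅V, A⁆ : Subgroup G) : Set G) :=
      (hYcV.trans (Subgroup.centralizer_le (commutator_le_left hAV))).trans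
        (Subgroup.centralizer_le_normalizer _)
    rcases hVmin ⁅V, A⁆ (commutator_le_left hAV) hYVA (le_normalizer_commutator_right _ _) with h1 | h1
    · have h2 := h.central ih (hqY q hq) hVY hV0 hVq hVY1 h1
      exact h.key ih hVY hV0 hYV hAV (inf_le_left.trans h2)
    · apply h.key ih hVY hV0 hYV hAV
      have h2 := hAVc A le_rfl
      rw [h1] at h2
      rw [h2]
      exact bot_le
  -- the main case
  have hVYV : ⁅V, Y⁆ = V := by
    rcases hVmin ⁅V, Y⁆ (commutator_le_left hYV) (le_normalizer_commutator_right _ _)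
      (le_normalizer_commutator hAV h.norm) with h1 | h1
    · exact absurd h1 hVY1
    · exact h1
  by_cases hVC : V ⊓ centralizer (A : Set G) ≤ XX A B Y
  · exact h.key ih hVY hV0 hYV hAV hVC
  exfalso
  set X := XX A B Y with hX
  set W : Subgroup G := ⁅V, A⁆ ⊔ (V ⊓ centralizer (A : Set G) ⊓ X) with hW
  have hVAV : ⁅V, A⁆ ≤ V := commutator_le_left hAV
  have hWV : W ≤ V := sup_le hVAV (inf_le_left.trans inf_le_left)
  have hVW : ¬ V ≤ W := by
    intro h1
    apply hVC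
    intro v hv
    have hn : (V ⊓ centralizer (A : Set G) ⊓ X) ≤ normalizer ((⁅V, A⁆ : Subgroup G) : Set G) :=
      (inf_le_left.trans inf_le_left).trans (le_normalizer_of_comm hVc hVAV)
    obtain ⟨w, hw, c, hc, hwc⟩ := (mem_sup_of_le_normalizer' hn).mp (h1 hv.1)
    have hw1 : w ∈ ⁅V, A⁆ ⊓ centralizer (A : Set G) := by
      refine mem_inf.mpr ⟨hw, ?_⟩
      have : w = v * c⁻¹ := by rw [← hwc]; group
      rw [this]
      exact mul_mem hv.2 (inv_mem hc.1.2)
    rw [hAVc A le_rfl, mem_bot] at hw1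
    rw [hw1, one_mul] at hwc
    rw [← hwc]
    exact hc.2
  -- the subgroup K
  let K : Subgroup G :=
    { carrier := {y | y ∈ Y ∧ ∀ v ∈ V, y * v * y⁻¹ * v⁻¹ ∈ W}
      one_mem' := ⟨Y.one_mem, fun v _ => by simp⟩
      mul_mem' := by
        rintro a b ⟨ha, ha'⟩ ⟨hb, hb'⟩
        refine ⟨Y.mul_mem ha hb, fun v hv => ?_⟩
        have h1 : b * v * b⁻¹ ∈ V := (mem_normalizer_iff.mp (hYV hb) _).mp hv
        have e : a * b * v * (a * b)⁻¹ * v⁻¹ = (a * (b * v * b⁻¹) * a⁻¹ * (b * v * b⁻¹)⁻¹) * (b * v * b⁻¹ * v⁻¹) := by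
          group
        rw [e]
        exact W.mul_mem (ha' _ h1) (hb' v hv)
      inv_mem' := by
        rintro a ⟨ha, ha'⟩
        refine ⟨Y.inv_mem ha, fun v hv => ?_⟩
        have h1 : a⁻¹ * v * a ∈ V := by
          have := (mem_normalizer_iff.mp (hYV (Y.inv_mem ha)) _).mp hv
          rwa [inv_inv] at this
        have e : a⁻¹ * v * a⁻¹⁻¹ * v⁻¹ = (a * (a⁻¹ * v * a) * a⁻¹ * (a⁻¹ * v * a)⁻¹)⁻¹ * 1 := by
          have h2 := hVc v hv (a⁻¹ * v * a) h1
          have h3 : (a * (a⁻¹ * v * a) * a⁻¹ * (a⁻¹ * v * a)⁻¹)⁻¹ = (a⁻¹ * v * a) * v⁻¹ := by group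
          rw [h3]; group
        rw [e, mul_one]
        exact W.inv_mem (ha' _ h1) }
  have hKm : ∀ y, y ∈ K ↔ y ∈ Y ∧ ∀ v ∈ V, y * v * y⁻¹ * v⁻¹ ∈ W := fun y => Iff.rfl
  have hYK : ¬ Y ≤ K := by
    intro h1
    apply hVW
    conv_lhs => rw [← hVYV, commutator_comm]
    rw [commutator_le]
    intro y hy v hv
    exact ((hKm y).mp (h1 hy)).2 v hv
  apply hYK
  refine h.gen.trans (sSup_le ?_)
  rintro L ⟨s, hs, P, hP, hAP, B₀, hB₀, rfl⟩
  haveI := Fact.mk hs
  have hB₀A : B₀ ≤ A := hB₀.1.trans h.le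
  have hAP₀ : A ≤ normalizer ((P ⊓ centralizer (B₀ : Set G) : Subgroup G) : Set G) :=
    le_normalizer_inf hAP (le_normalizer_centralizer (le_normalizer_of_comm h.comm hB₀A))
  set P₀ := P ⊓ centralizer (B₀ : Set G) with hP₀
  have hP₀Y : P₀ ≤ Y := inf_le_left.trans hP.1
  set L := ⁅P₀, A⁆ with hL
  have hLP₀ : L ≤ P₀ := commutator_le_left hAP₀
  have hLY : L ≤ Y := hLP₀.trans hP₀Y
  have hAL : A ≤ normalizer (L : Set G) := le_normalizer_commutator_right _ _
  have hLL : ⁅L, A⁆ = L := (h.sub hP₀Y hAP₀).eq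
  have hLV : L ≤ normalizer (V : Set G) := hLY.trans hYV
  have hAVL : A ≤ normalizer ((V ⊔ L : Subgroup G) : Set G) := le_normalizer_sup hAV hAL
  have hVLY : V ⊔ L ≤ Y := sup_le hVY hLY
  by_cases hM : ⁅V ⊔ L, A⁆ = Y
  · -- Y = V L
    exfalso
    have hYVL : Y ≤ V ⊔ L := by rw [← hM]; exact commutator_le_left hAVL
    by_cases hsq : s = q
    · subst hsq
      apply hqY s hq
      have h1 : IsPGroup s (V ⊔ L : Subgroup G) := by
        have h2 : IsPGroup s L := hP.isPGroup.to_le (hLP₀.trans inf_le_left)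
        have h3 := H3.CardSup.card_sup_mul_card_inf L V hLV
        obtain ⟨m, hm⟩ := IsPGroup.iff_card.mp hVq
        obtain ⟨n, hn⟩ := IsPGroup.iff_card.mp h2
        rw [sup_comm, hm, hn, ← pow_add] at h3
        have h4 : Nat.card (V ⊔ L : Subgroup G) ∣ s ^ (n + m) := ⟨_, h3.symm⟩
        obtain ⟨k, -, hk⟩ := (Nat.dvd_prime_pow hs).mp h4
        exact IsPGroup.of_card hk
      exact h1.to_le hYVL
    · have hLB₀ : L ≤ centralizer (B₀ : Set G) := hLP₀.trans inf_le_right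
      have hB₀V : B₀ ≤ normalizer (V : Set G) := hB₀A.trans hAV
      have hVB₀ : ⁅V, B₀⁆ ≤ V := commutator_le_left hB₀V
      have hLn : L ≤ normalizer (B₀ : Set G) := hLB₀.trans (Subgroup.centralizer_le_normalizer _)
      rcases hVmin ⁅V, B₀⁆ hVB₀ (hYVL.trans (sup_le (le_normalizer_of_comm hVc hVB₀)
        (le_normalizer_commutator hLV hLn)))
        (le_normalizer_commutator hAV (le_normalizer_of_comm h.comm hB₀A)) with h1 | h1
      · -- B₀ centralizes Y
        have h2 : Y ≤ centralizer (B₀ : Set G) :=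
          hYVL.trans (sup_le ((commutator_eq_bot_iff_le_centralizer).mp h1) hLB₀)
        apply hVC
        have h3 : Y ⊓ centralizer (B : Set G) ≤ X := by
          refine le_trans ?_ (le_XX hB₀)
          have h4 : Y ⊓ centralizer (B₀ : Set G) = Y := inf_eq_left.mpr h2
          rw [h4, h.eq]
          exact le_inf le_rfl inf_le_left
        exact (inf_le_inf hVY (Subgroup.centralizer_le h.le)).trans h3
      · apply hVC
        have h2 := hAVc B₀ hB₀A
        rw [h1] at h2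
        have h3 : V ⊓ centralizer (A : Set G) ≤ ⊥ := by
          rw [← h2]
          exact inf_le_inf_left _ (Subgroup.centralizer_le hB₀A)
        exact h3.trans bot_le
  · have hprop := h.proper ih hVLY hAVL hM
    set M := ⁅V ⊔ L, A⁆ with hMdef
    have hLM : L ≤ M := by
      conv_lhs => rw [← hLL]
      exact Subgroup.commutator_mono le_sup_right le_rfl
    have hVM : V ≤ normalizer (M : Set G) := le_sup_left.trans (le_normalizer_commutator_left _ _)
    have hAM : A ≤ normalizer (M : Set G) := le_normalizer_commutator_right _ _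
    have hAVM : A ≤ normalizer ((V ⊓ M : Subgroup G) : Set G) := le_normalizer_inf hAV hAM
    have hVMW : V ⊓ M ≤ W := by
      rw [← commutator_sup_centralizer A (V ⊓ M) hAVM (h.cop le_rfl (inf_le_left.trans hVY)) (Or.inl (h.asolv le_rfl))]
      refine sup_le_sup (Subgroup.commutator_mono inf_le_left le_rfl) ?_
      intro g hg
      refine mem_inf.mpr ⟨mem_inf.mpr ⟨hg.1.1, hg.2⟩, ?_⟩
      exact hprop (mem_inf.mpr ⟨hg.1.2, Subgroup.centralizer_le h.le hg.2⟩)
    intro y hy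
    rw [hKm]
    refine ⟨hLY hy, fun v hv => hVMW (mem_inf.mpr ⟨?_, ?_⟩)⟩
    · exact V.mul_mem ((mem_normalizer_iff.mp (hLV hy) _).mp hv) (V.inv_mem hv)
    · have e : y * v * y⁻¹ * v⁻¹ = y * (v * y⁻¹ * v⁻¹) := by group
      rw [e]
      exact M.mul_mem (hLM hy) ((mem_normalizer_iff.mp (hVM hv) _).mp (M.inv_mem (hLM hy)))

end main

theorem IH_all [hp : Fact p.Prime] (n : ℕ) : IH.{u} p n := by
  induction n with
  | zero =>
    intro G _ _ A B Y _ h0
    exact absurd h0 (Nat.not_lt_zero _)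
  | succ n ih =>
    intro G _ _ A B Y h hn
    apply h.main
    intro G' _ _ A' B' Y' h' hn'
    exact ih G' A' B' Y' h' (by omega)

/-- `C_Y(B)` is generated by the `C_Y(B) ∩ [C_Y(B₀), A]`. -/
theorem final [Finite G] [hp : Fact p.Prime] {A B Y : Subgroup G} (h : Hy p A B Y) :
    Y ⊓ centralizer (B : Set G) = XX A B Y :=
  le_antisymm (h.main (IH_all _)) XX_le

end H27.GenCyc
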