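import Mathlib
import Cfsg.Prelude.Def_Balance
import Cfsg.Agent.Lib.H27.GenSub
import Cfsg.Agent.Lib.H27.ElAb
import Cfsg.Agent.Lib.H26.Basic

/-!
A balanced family of subgroups `W D ≤ C(D)` generating a solvable `p'`-group `X` satisfies
`C_X(D) ≤ W D`.
-/

set_option autoImplicit false
set_option linter.unusedSectionVars false

open Subgroup Cfsg H26.Basic H1.Coprime H1.Coprime2
open scoped Pointwise commutatorElement

namespace H27.GenFam

variable {G : Type*} [Group G]

/-- a proper normal subgroup of a solvable group together with the commutator subgroup is proper -/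
theorem sup_commutator_ne {X N : Subgroup G} (hX : Group.IsSolvable X) (hNX : N ≤ X)
    (hn : X ≤ normalizer (N : Set G)) (h : X ≤ N ⊔ ⁅X, X⁆) : X ≤ N := by
  have key : ∀ i : ℕ, X ≤ N ⊔ (derivedSeries X i).map X.subtype := by
    intro i
    induction i with
    | zero =>
      rw [derivedSeries_zero, ← MonoidHom.range_eq_map, Subgroup.range_subtype]
      exact le_sup_right
    | succ i ih =>
      set D := (derivedSeries X i).map X.subtype with hD
      have hDX : D ≤ X := Subgroup.map_subtype_le _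
      have hD1 : (derivedSeries X (i + 1)).map X.subtype = ⁅D, D⁆ := by
        rw [derivedSeries_succ, Subgroup.map_commutator]
      rw [hD1]
      have hDn : X ≤ normalizer (D : Set G) := by
        have : D = (derivedSeries X i).map X.subtype := hD
        apply le_normalizer_of_conj_mem
        rintro x hx _ ⟨y, hy, rfl⟩
        exact ⟨⟨x, hx⟩ * y * ⟨x, hx⟩⁻¹, (derivedSeries_normal X i).conj_mem y hy _, rfl⟩
      have hXX : ⁅X, X⁆ ≤ N ⊔ ⁅D, D⁆ := by
        rw [Subgroup.commutator_le]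
        intro x hx y hy
        obtain ⟨n, hn1, d, hd, rfl⟩ := (mem_sup_of_le_normalizer' (hDX.trans hn)).mp (ih hx)
        obtain ⟨m, hm1, e, he, rfl⟩ := (mem_sup_of_le_normalizer' (hDX.trans hn)).mp (ih hy)
        have hnX : n ∈ X := hNX hn1
        have hmX : m ∈ X := hNX hm1
        have hdX := hDX hd
        have heX := hDX he
        -- `[n d, m e] = [n, ...]`: everything modulo `N`
        have e1 : ⁅n * d, m * e⁆ = n * (d * m * d⁻¹) * ((d * e * d⁻¹) * n⁻¹ * (d * e * d⁻¹)⁻¹) *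
            (⁅d, e⁆ * m⁻¹ * ⁅d, e⁆⁻¹) * ⁅d, e⁆ := by
          simp only [commutatorElement_def]; group
        rw [e1]
        have c : ∀ {x u : G}, x ∈ X → u ∈ N → x * u * x⁻¹ ∈ N := fun hx hu =>
          conj_mem_of_le_normalizer hn hx hu
        have hde : ⁅d, e⁆ ∈ X := by
          rw [commutatorElement_def]
          exact X.mul_mem (X.mul_mem (X.mul_mem hdX heX) (X.inv_mem hdX)) (X.inv_mem heX)
        exact Subgroup.mul_mem_sup (N.mul_mem (N.mul_mem (N.mul_mem hn1 (c hdX hm1))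
          (c (X.mul_mem (X.mul_mem hdX heX) (X.inv_mem hdX)) (N.inv_mem hn1)))
          (c hde (N.inv_mem hm1))) (Subgroup.commutator_mem_commutator hd he)
      exact h.trans (sup_le le_sup_left hXX)
  obtain ⟨n, hn⟩ := hX.solvable
  have := key n
  rw [hn, Subgroup.map_bot, sup_bot_eq] at this
  exact this

theorem gen [Finite G] {p : ℕ} [hp : Fact p.Prime] {A : Subgroup G} (hA : IsElementaryAbelian p A)
    (𝒟 : Set (Subgroup G)) (h𝒟 : ∀ D ∈ 𝒟, D ≤ A) {Z : Subgroup G}
    (hrank : ∀ B₁ B₂ : Subgroup G, B₁ ≤ A → B₂ ≤ A → B₁.relIndex A ≤ p → B₂.relIndex A ≤ p →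
      ∃ F ∈ 𝒟, F ≤ B₁ ⊔ Z ∧ F ≤ B₂ ⊔ Z) (n : ℕ) :
    ∀ (X : Subgroup G) (W : Subgroup G → Subgroup G), Nat.card X ≤ n → Group.IsSolvable X →
      ¬ p ∣ Nat.card X → A ≤ normalizer (X : Set G) → X ≤ centralizer (Z : Set G) →
      (∀ D ∈ 𝒟, W D ≤ X) → (∀ D ∈ 𝒟, W D ≤ centralizer (D : Set G)) →
      (∀ D ∈ 𝒟, A ≤ normalizer (W D : Set G)) →
      (∀ D ∈ 𝒟, ∀ E ∈ 𝒟, W D ⊓ centralizer (E : Set G) ≤ W E) →
      X ≤ ⨆ D ∈ 𝒟, W D → ∀ D ∈ 𝒟, X ⊓ centralizer (D : Set G) ≤ W D := by
  induction n with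
  | zero =>
    intro X W hn
    exact absurd hn (Nat.not_le.mpr Nat.card_pos)
  | succ n ih =>
    intro X W hn hsol hpX hAX hXZ hWX hWC hAW hbal hgen D hD
    rcases eq_or_ne X ⊥ with rfl | hX1
    · rw [bot_inf_eq]; exact bot_le
    have hcomm := ElAb.comm hA
    have hAC : ∀ D ∈ 𝒟, A ≤ normalizer ((centralizer (D : Set G) : Subgroup G) : Set G) :=
      fun D hD => le_normalizer_centralizer (ElAb.le_normalizer_of_le hA (h𝒟 D hD))
    -- a maximal `A`-invariant normal subgroup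
    obtain ⟨N, hN, hmax⟩ : ∃ N : Subgroup G, (N ≤ X ∧ N ≠ X ∧ X ≤ normalizer (N : Set G) ∧
        A ≤ normalizer (N : Set G)) ∧ ∀ M : Subgroup G, N ≤ M → M ≤ X →
          X ≤ normalizer (M : Set G) → A ≤ normalizer (M : Set G) → M = N ∨ M = X := by
      obtain ⟨N, hN⟩ := Set.Finite.exists_maximal (s := {N : Subgroup G | N ≤ X ∧ N ≠ X ∧
        X ≤ normalizer (N : Set G) ∧ A ≤ normalizer (N : Set G)}) (Set.toFinite _)
        ⟨⊥, bot_le, Ne.symm hX1, by rw [Subgroup.normalizer_eq_top]; exact le_top,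
          by rw [Subgroup.normalizer_eq_top]; exact le_top⟩
      refine ⟨N, hN.prop, fun M hNM hMX h1 h2 => ?_⟩
      by_cases hM : M = X
      · exact Or.inr hM
      · exact Or.inl (le_antisymm (hN.le_of_ge ⟨hMX, hM, h1, h2⟩ hNM) hNM)
    obtain ⟨hNX, hNX', hXN, hAN⟩ := hN
    have hXX : ⁅X, X⁆ ≤ N := by
      have h1 : N ⊔ ⁅X, X⁆ = N ∨ N ⊔ ⁅X, X⁆ = X := by
        apply hmax _ le_sup_left (sup_le hNX (commutator_le_left Subgroup.le_normalizer))
          (le_normalizer_sup hXN (le_normalizer_commutator_left X X))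
          (le_normalizer_sup hAN (le_normalizer_commutator hAX hAX))
      rcases h1 with h1 | h1
      · rw [← h1]; exact le_sup_right
      · exact absurd (le_antisymm hNX (sup_commutator_ne hsol hNX hXN h1.ge)) hNX'
    have hnormM : ∀ M : Subgroup G, N ≤ M → M ≤ X → X ≤ normalizer (M : Set G) := by
      intro M hNM hMX
      apply le_normalizer_of_conj_mem
      intro x hx m hm
      have e : x * m * x⁻¹ = ⁅x, m⁆ * m := by rw [commutatorElement_def]; group
      rw [e]
      exact M.mul_mem (hNM (hXX (Subgroup.commutator_mem_commutator hx (hMX hm)))) hm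
    -- the kernel of `A` on `X / N`
    obtain ⟨B, hB⟩ : ∃ B : Subgroup G, ∀ a, a ∈ B ↔ a ∈ A ∧ ∀ x ∈ X, a * x * a⁻¹ * x⁻¹ ∈ N := by
      refine ⟨{ carrier := {a | a ∈ A ∧ ∀ x ∈ X, a * x * a⁻¹ * x⁻¹ ∈ N}
                mul_mem' := ?_
                one_mem' := ?_
                inv_mem' := ?_ }, fun a => Iff.rfl⟩
      · rintro a b ⟨ha, ha'⟩ ⟨hb, hb'⟩
        refine ⟨A.mul_mem ha hb, fun x hx => ?_⟩
        have e : a * b * x * (a * b)⁻¹ * x⁻¹ =
            a * (b * x * b⁻¹ * x⁻¹) * a⁻¹ * (a * x * a⁻¹ * x⁻¹) := by group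
        rw [e]
        exact N.mul_mem (conj_mem_of_le_normalizer hAN ha (hb' x hx)) (ha' x hx)
      · refine ⟨A.one_mem, fun x _ => ?_⟩
        have e : (1 : G) * x * 1⁻¹ * x⁻¹ = 1 := by group
        rw [e]; exact N.one_mem
      · rintro a ⟨ha, ha'⟩
        refine ⟨A.inv_mem ha, fun x hx => ?_⟩
        have e : a⁻¹ * x * a⁻¹⁻¹ * x⁻¹ = a⁻¹ * (a * x * a⁻¹ * x⁻¹)⁻¹ * a⁻¹⁻¹ := by group
        rw [e]
        exact conj_mem_of_le_normalizer hAN (A.inv_mem ha) (N.inv_mem (ha' x hx))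
    have hBA : B ≤ A := fun a ha => ((hB a).mp ha).1
    have hdich : ∀ D ∈ 𝒟, D ≤ B ∨ X ⊓ centralizer (D : Set G) ≤ N := by
      intro D hD
      have h0 : N ⊔ X ⊓ centralizer (D : Set G) ≤ X := sup_le hNX inf_le_left
      rcases hmax (N ⊔ X ⊓ centralizer (D : Set G)) le_sup_left h0 (hnormM _ le_sup_left h0)
        (le_normalizer_sup hAN (le_normalizer_inf hAX (hAC D hD))) with h | h
      · right; rw [← h]; exact le_sup_right
      · left
        intro d hd
        refine (hB d).mpr ⟨h𝒟 D hD hd, fun x hx => ?_⟩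
        rw [← h] at hx
        obtain ⟨u, hu, c, hc, rfl⟩ := (mem_sup_of_le_normalizer' (inf_le_left.trans hXN)).mp hx
        have h1 : d * c = c * d := Subgroup.mem_centralizer_iff.mp hc.2 d hd
        have e : d * (u * c) * d⁻¹ * (u * c)⁻¹ = d * u * d⁻¹ * (d * c * d⁻¹ * c⁻¹) * u⁻¹ := by group
        rw [e, h1]
        have e2 : d * u * d⁻¹ * (c * d * d⁻¹ * c⁻¹) * u⁻¹ = (d * u * d⁻¹) * u⁻¹ := by group
        rw [e2]
        exact N.mul_mem (conj_mem_of_le_normalizer hAN (h𝒟 D hD hd) hu) (N.inv_mem hu)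
    obtain ⟨D₀, hD₀, hWD₀⟩ : ∃ D₀ ∈ 𝒟, ¬ W D₀ ≤ N := by
      by_contra hcon
      push Not at hcon
      exact hNX' (le_antisymm hNX (hgen.trans (iSup₂_le hcon)))
    have hD₀B : D₀ ≤ B := by
      rcases hdich D₀ hD₀ with h | h
      · exact h
      · exact absurd ((le_inf (hWX D₀ hD₀) (hWC D₀ hD₀)).trans h) hWD₀
    have hXNW : X = N ⊔ W D₀ := by
      have h0 : N ⊔ W D₀ ≤ X := sup_le hNX (hWX D₀ hD₀)
      rcases hmax (N ⊔ W D₀) le_sup_left h0 (hnormM _ le_sup_left h0)
        (le_normalizer_sup hAN (hAW D₀ hD₀)) with h | h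
      · exact absurd (le_sup_right.trans h.le) hWD₀
      · exact h.symm
    set Y := W D₀ ⊓ centralizer (B : Set G) with hY
    have hYX : Y ≤ X := inf_le_left.trans (hWX D₀ hD₀)
    have hpW : ∀ D ∈ 𝒟, ¬ p ∣ Nat.card (W D) := fun D hD h =>
      hpX (h.trans (Subgroup.card_dvd_of_le (hWX D hD)))
    have hXNY : X ≤ N ⊔ Y := by
      have h1 := commutator_sup_centralizer B (W D₀) (hBA.trans (hAW D₀ hD₀))
        (GenSub.coprime_of_isPGroup (ElAb.isPGroup (ElAb.mono hA hBA)) (hpW D₀ hD₀))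
        (Or.inl (GenSub.isSolvable_of_isPGroup (ElAb.isPGroup (ElAb.mono hA hBA))))
      conv_lhs => rw [hXNW]
      rw [← h1]
      refine sup_le le_sup_left (sup_le ?_ le_sup_right)
      refine le_trans ?_ le_sup_left
      rw [Subgroup.commutator_comm, Subgroup.commutator_le]
      intro b hb w hw
      exact ((hB b).mp hb).2 w (hWX D₀ hD₀ hw)
    have hYW : ∀ E ∈ 𝒟, E ≤ B → Y ≤ W E := fun E hE hEB =>
      (inf_le_inf_left _ (Subgroup.centralizer_le hEB)).trans (hbal D₀ hD₀ E hE)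
    set N₀ := ⨆ D ∈ 𝒟, W D ⊓ N with hN₀
    have hWN₀ : ∀ D ∈ 𝒟, W D ⊓ N ≤ N₀ := fun D hD => le_iSup₂_of_le D hD le_rfl
    have hXN₀ : X ≤ normalizer (N₀ : Set G) := by
      refine hgen.trans (iSup₂_le fun E hE => ?_)
      refine GenSub.le_of_hyperplanes p A (W E) _ hA (hAW E hE) (hpW E hE) fun B₂ hB₂ hi₂ => ?_
      apply le_normalizer_of_conj_mem
      intro x hx
      suffices h : N₀ ≤ N₀.comap (MulAut.conj x).toMonoidHom by
        intro u hu
        exact h hu
      refine iSup₂_le fun D hD => ?_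
      refine GenSub.le_of_hyperplanes p A (W D ⊓ N) _ hA (le_normalizer_inf (hAW D hD) hAN)
        (fun h => hpW D hD (h.trans (Subgroup.card_dvd_of_le inf_le_left))) fun B₁ hB₁ hi₁ => ?_
      intro u hu
      obtain ⟨F, hF, hF1, hF2⟩ := hrank B₁ B₂ hB₁ hB₂ hi₁ hi₂
      have hc : ∀ {B' : Subgroup G} {v : G}, v ∈ centralizer (B' : Set G) → v ∈ X →
          F ≤ B' ⊔ Z → v ∈ centralizer (F : Set G) := by
        intro B' v hv hvX hF
        have h1 : B' ⊔ Z ≤ centralizer {v} := by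
          refine sup_le ?_ ?_
          · intro b hb
            rw [Subgroup.mem_centralizer_singleton_iff]
            exact Subgroup.mem_centralizer_iff.mp hv b hb
          · intro b hb
            rw [Subgroup.mem_centralizer_singleton_iff]
            exact Subgroup.mem_centralizer_iff.mp (hXZ hvX) b hb
        rw [Subgroup.mem_centralizer_iff]
        intro f hf
        exact Subgroup.mem_centralizer_singleton_iff.mp (h1 (hF hf))
      have hxX : x ∈ X := hWX E hE hx.1
      have huX : u ∈ X := hWX D hD hu.1.1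
      have hxF : x ∈ W F := hbal E hE F hF ⟨hx.1, hc hx.2 hxX hF2⟩
      have huF : u ∈ W F := hbal D hD F hF ⟨hu.1.1, hc hu.2 huX hF1⟩
      change x * u * x⁻¹ ∈ N₀
      exact hWN₀ F hF ⟨(W F).mul_mem ((W F).mul_mem hxF huF) ((W F).inv_mem hxF),
        conj_mem_of_le_normalizer hXN hxX hu.1.2⟩
    have hXYN₀ : X ≤ Y ⊔ N₀ := by
      refine hgen.trans (iSup₂_le fun E hE => ?_)
      rcases hdich E hE with h | h
      · intro w hw
        obtain ⟨u, hu, y, hy, rfl⟩ := (mem_sup_of_le_normalizer' (hYX.trans hXN)).mp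
          (hXNY (hWX E hE hw))
        have hyE := hYW E hE h hy
        have huE : u ∈ W E := by
          have := (W E).mul_mem hw ((W E).inv_mem hyE)
          rwa [mul_inv_cancel_right] at this
        rw [sup_comm]
        exact Subgroup.mul_mem_sup (hWN₀ E hE ⟨huE, hu⟩) hy
      · refine le_trans ?_ le_sup_right
        refine le_trans (le_inf le_rfl ?_) (hWN₀ E hE)
        exact (le_inf (hWX E hE) (hWC E hE)).trans h
    have hNN₀ : N ≤ N₀ := by
      intro u hu
      obtain ⟨y, hy, v, hv, hyv⟩ := (mem_sup_of_le_normalizer (hYX.trans hXN₀)).mp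
        (hXYN₀ (hNX hu))
      have hN₀N : N₀ ≤ N := iSup₂_le fun D _ => inf_le_right
      have hyN : y ∈ N := by
        have := N.mul_mem hu (N.inv_mem (hN₀N hv))
        rwa [← hyv, mul_inv_cancel_right] at this
      rw [← hyv]
      exact N₀.mul_mem (hWN₀ D₀ hD₀ ⟨hy.1, hyN⟩) hv
    have hcard : Nat.card N ≤ n := by
      have h1 : Nat.card N < Nat.card X := by
        refine lt_of_le_of_ne (Subgroup.card_le_of_le hNX) fun h => hNX' ?_
        exact Subgroup.eq_of_le_of_card_ge hNX h.ge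
      omega
    have hind := ih N (fun D => W D ⊓ N) hcard (isSolvable_of_le hNX hsol)
      (fun h => hpX (h.trans (Subgroup.card_dvd_of_le hNX))) hAN (hNX.trans hXZ)
      (fun D _ => inf_le_right) (fun D hD => inf_le_left.trans (hWC D hD))
      (fun D hD => le_normalizer_inf (hAW D hD) hAN)
      (fun D hD E hE => le_inf ((inf_le_inf_right _ inf_le_left).trans (hbal D hD E hE))
        (inf_le_left.trans inf_le_right)) hNN₀ D hD
    rcases hdich D hD with h | h
    · rintro x ⟨hxX, hxC⟩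
      obtain ⟨u, hu, y, hy, rfl⟩ := (mem_sup_of_le_normalizer' (hYX.trans hXN)).mp (hXNY hxX)
      have hyD : y ∈ centralizer (D : Set G) := Subgroup.centralizer_le h hy.2
      have huD : u ∈ centralizer (D : Set G) := by
        have := (centralizer (D : Set G)).mul_mem hxC ((centralizer (D : Set G)).inv_mem hyD)
        rwa [mul_inv_cancel_right] at this
      exact (W D).mul_mem (hind ⟨hu, huD⟩).1 (hYW D hD h hy)
    · intro x hx
      exact (hind ⟨h hx, hx.2⟩).1

end H27.GenFam
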