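import Mathlib
import Cfsg.Prelude.Def_Balance
import Cfsg.Agent.Lib.H27.CompAct
import Cfsg.Agent.Lib.H27.SigBasic
import Cfsg.Agent.Lib.H27.ElAb

/-!
Local `k`-balance of the components implies `k`-balance.
-/

set_option autoImplicit false
set_option linter.unusedSectionVars false

open Subgroup Cfsg H26.Basic H26.LocalFitting H1.Coprime H1.Coprime2 H27.CompAct
open scoped Pointwise commutatorElement

namespace H27.KBal

section quotAut

variable {K : Type*} [Group K]

/-- the action of automorphisms on the central quotient -/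
def quotAut (K : Type*) [Group K] : MulAut K →* MulAut (K ⧸ center K) where
  toFun φ := QuotientGroup.congr (center K) (center K) φ
    (Subgroup.characteristic_iff_map_eq.mp inferInstance φ)
  map_one' := by
    apply MulEquiv.ext
    intro x
    obtain ⟨x, rfl⟩ := QuotientGroup.mk_surjective x
    rfl
  map_mul' φ ψ := by
    apply MulEquiv.ext
    intro x
    obtain ⟨x, rfl⟩ := QuotientGroup.mk_surjective x
    rfl

theorem quotAut_mk (φ : MulAut K) (x : K) :
    quotAut K φ (QuotientGroup.mk x) = QuotientGroup.mk (φ x) := rfl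

end quotAut

variable {G : Type*} [Group G]

/-- the action of the normalizer of `K` on `K / Z(K)` -/
def act (K : Subgroup G) : normalizer (K : Set G) →* MulAut (K ⧸ center K) :=
  (quotAut K).comp K.normalizerMonoidHom

theorem act_mk {K : Subgroup G} {x : G} (hx : x ∈ normalizer (K : Set G)) {k : G} (hk : k ∈ K) :
    act K ⟨x, hx⟩ (QuotientGroup.mk (⟨k, hk⟩ : K)) =
      QuotientGroup.mk (⟨x * k * x⁻¹, (Subgroup.mem_normalizer_iff.mp hx k).mp hk⟩ : K) := rfl

theorem act_eq_iff {K : Subgroup G} {x y : G} (hx : x ∈ normalizer (K : Set G))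
    (hy : y ∈ normalizer (K : Set G)) : act K ⟨x, hx⟩ = act K ⟨y, hy⟩ ↔
      ∀ k ∈ K, (x * k * x⁻¹)⁻¹ * (y * k * y⁻¹) ∈ centralizer (K : Set G) := by
  constructor
  · intro h k hk
    have h1 := DFunLike.congr_fun h (QuotientGroup.mk (⟨k, hk⟩ : K))
    rw [act_mk, act_mk, QuotientGroup.eq, Subgroup.mem_center_iff] at h1
    rw [Subgroup.mem_centralizer_iff]
    intro z hz
    exact congrArg Subtype.val (h1 ⟨z, hz⟩)
  · intro h
    apply MulEquiv.ext
    intro z
    obtain ⟨⟨k, hk⟩, rfl⟩ := QuotientGroup.mk_surjective z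
    rw [act_mk, act_mk, QuotientGroup.eq, Subgroup.mem_center_iff]
    rintro ⟨z, hz⟩
    exact Subtype.ext (Subgroup.mem_centralizer_iff.mp (h k hk) z hz)

theorem act_eq_one_iff {K : Subgroup G} {x : G} (hx : x ∈ normalizer (K : Set G)) :
    act K ⟨x, hx⟩ = 1 ↔ ∀ k ∈ K, ⁅k, x⁆ ∈ centralizer (K : Set G) := by
  have h1 : (1 : MulAut (K ⧸ center K)) = act K ⟨1, one_mem _⟩ := (map_one (act K)).symm
  rw [h1, act_eq_iff]
  constructor
  · intro h k hk
    have h2 := h k⁻¹ (K.inv_mem hk)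
    have h3 := inv_mem h2
    have e : ((x * k⁻¹ * x⁻¹)⁻¹ * (1 * k⁻¹ * 1⁻¹))⁻¹ = k * (x * k⁻¹ * x⁻¹) := by group
    rw [e] at h3
    have e2 : ⁅k, x⁆ = k * (x * k⁻¹ * x⁻¹) := by rw [commutatorElement_def]; group
    rwa [e2]
  · intro h k hk
    have h2 := h k⁻¹ (K.inv_mem hk)
    have e2 : ⁅k⁻¹, x⁆ = k⁻¹ * (x * k * x⁻¹) := by rw [commutatorElement_def]; group
    rw [e2] at h2
    have h3 := inv_mem h2
    have e3 : (k⁻¹ * (x * k * x⁻¹))⁻¹ = (x * k * x⁻¹)⁻¹ * (1 * k * 1⁻¹) := by group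
    rwa [e3] at h3

/-- an element of `N(K)` acting trivially on `K/Z(K)` centralizes the perfect group `K`. -/
theorem mem_centralizer_of_act {K : Subgroup G} (hperf : ⁅K, K⁆ = K) {x : G}
    (hx : x ∈ normalizer (K : Set G)) (h : act K ⟨x, hx⟩ = 1) : x ∈ centralizer (K : Set G) := by
  have h1 : ⁅K, zpowers x⁆ ≤ centralizer (K : Set G) := by
    rw [Subgroup.commutator_le]
    intro k hk y hy
    obtain ⟨n, rfl⟩ := Subgroup.mem_zpowers_iff.mp hy
    have h2 : act K ⟨x ^ n, Subgroup.zpow_mem _ hx n⟩ = 1 := by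
      have e : (⟨x ^ n, Subgroup.zpow_mem _ hx n⟩ : normalizer (K : Set G)) = ⟨x, hx⟩ ^ n := rfl
      rw [e, map_zpow, h, one_zpow]
    exact (act_eq_one_iff _).mp h2 k hk
  have h2 : ⁅⁅K, zpowers x⁆, K⁆ = ⊥ := Subgroup.commutator_eq_bot_iff_le_centralizer.mpr h1
  have h3 := commutator_eq_bot_of_perfect' hperf h2
  rw [Subgroup.commutator_comm, Subgroup.commutator_eq_bot_iff_le_centralizer, zpowers_le] at h3
  exact h3

/-- the image of `S ≤ N(K)` in `Aut(K/Z(K))` -/
def im (K S : Subgroup G) : Subgroup (MulAut (K ⧸ center K)) :=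
  (S.subgroupOf (normalizer (K : Set G))).map (act K)

theorem mem_im {K S : Subgroup G} {y : MulAut (K ⧸ center K)} :
    y ∈ im K S ↔ ∃ x, ∃ hx : x ∈ normalizer (K : Set G), x ∈ S ∧ act K ⟨x, hx⟩ = y := by
  constructor
  · rintro ⟨⟨x, hx⟩, hxS, rfl⟩
    exact ⟨x, hx, hxS, rfl⟩
  · rintro ⟨x, hx, hxS, rfl⟩
    exact ⟨⟨x, hx⟩, hxS, rfl⟩

theorem act_mem_im {K S : Subgroup G} {x : G} (hx : x ∈ normalizer (K : Set G)) (hxS : x ∈ S) :
    act K ⟨x, hx⟩ ∈ im K S := mem_im.mpr ⟨x, hx, hxS, rfl⟩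

theorem im_mono {K S T : Subgroup G} (h : S ≤ T) : im K S ≤ im K T := by
  intro y hy
  obtain ⟨x, hx, hxS, rfl⟩ := mem_im.mp hy
  exact act_mem_im hx (h hxS)

theorem inner_le_im (K : Subgroup G) :
    (MulAut.conj : (K ⧸ center K) →* MulAut (K ⧸ center K)).range ≤ im K K := by
  rintro _ ⟨z, rfl⟩
  obtain ⟨⟨k, hk⟩, rfl⟩ := QuotientGroup.mk_surjective z
  refine mem_im.mpr ⟨k, Subgroup.le_normalizer hk, hk, ?_⟩
  apply MulEquiv.ext
  intro w
  obtain ⟨⟨m, hm⟩, rfl⟩ := QuotientGroup.mk_surjective w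
  rfl

theorem act_congr {K : Subgroup G} {x y : G} (hx : x ∈ normalizer (K : Set G))
    (hy : y ∈ normalizer (K : Set G)) (h : x = y) : act K ⟨x, hx⟩ = act K ⟨y, hy⟩ := by
  subst h; rfl

theorem card_im_dvd {K S : Subgroup G} (hS : S ≤ normalizer (K : Set G)) :
    Nat.card (im K S) ∣ Nat.card S := by
  have h1 : Nat.card (im K S) ∣ Nat.card (S.subgroupOf (normalizer (K : Set G))) :=
    Subgroup.card_map_dvd _ _
  rwa [H1.SZ.card_subgroupOf_of_le hS] at h1

variable [Finite G] {p : ℕ} [hp : Fact p.Prime]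

/-- the main lemma on `k`-balanced components -/
theorem comm_of_locallyKBalanced {k : ℕ} {K A D : Subgroup G} (hperf : ⁅K, K⁆ = K)
    (hA : IsElementaryAbelian p A) (hAk : Nat.card A = p ^ k)
    (hAK : A ≤ normalizer (K : Set G)) (hfaith : A ⊓ centralizer (K : Set G) = ⊥)
    (Da : G → Subgroup G)
    (hDa : ∀ a ∈ A, a ≠ 1 → (Nat.card (Da a)).Coprime p ∧ D ≤ Da a ∧ Da a ≤ centralizer {a} ∧
      Da a ≤ normalizer (K : Set G) ∧ A ≤ normalizer (Da a : Set G) ∧
      K ⊓ centralizer {a} ≤ normalizer (Da a : Set G) ∧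
      ⁅K ⊓ centralizer (K : Set G), Da a⁆ = ⊥)
    (hDK : D ≤ normalizer (K : Set G)) (hDA : ∀ a ∈ A, ∀ d ∈ D, a * d = d * a)
    (hbal : IsLocallyKBalanced p k (K ⧸ center K)) : ⁅K, D⁆ = ⊥ := by
  set H₀ := K ⊔ (A ⊔ D) with hH₀
  have hADK : A ⊔ D ≤ normalizer (K : Set G) := sup_le hAK hDK
  have hH₀N : H₀ ≤ normalizer (K : Set G) := sup_le Subgroup.le_normalizer hADK
  have hKH₀ : K ≤ H₀ := le_sup_left
  have hAH₀ : A ≤ H₀ := le_sup_left.trans le_sup_right
  have hDH₀ : D ≤ H₀ := le_sup_right.trans le_sup_right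
  have hADcomm : ⁅A, D⁆ = ⊥ := commutator_eq_bot_iff_forall.mpr hDA
  -- decomposition of elements of `H₀`
  have hdec : ∀ y ∈ H₀, ∃ x ∈ K, ∃ α ∈ A, ∃ δ ∈ D, y = x * (α * δ) := by
    intro y hy
    obtain ⟨x, hx, w, hw, rfl⟩ := (mem_sup_of_le_normalizer' hADK).mp hy
    obtain ⟨α, hα, δ, hδ, rfl⟩ := (mem_sup_of_commutator_eq_bot hADcomm).mp hw
    exact ⟨x, hx, α, hα, δ, hδ, rfl⟩
  set Hs := im K H₀ with hHs
  have hinn : (MulAut.conj : (K ⧸ center K) →* MulAut (K ⧸ center K)).range ≤ Hs :=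
    (inner_le_im K).trans (im_mono hKH₀)
  set As : Subgroup Hs := (im K A).subgroupOf Hs with hAs
  have hinj : ∀ a ∈ A, ∀ ha' : a ∈ normalizer (K : Set G), act K ⟨a, ha'⟩ = 1 → a = 1 := by
    intro a ha ha' h
    have h1 : a ∈ A ⊓ centralizer (K : Set G) := ⟨ha, mem_centralizer_of_act hperf ha' h⟩
    rw [hfaith] at h1
    exact h1
  have hAsel : IsElementaryAbelian p As := by
    apply ElAb.of_comm
    · rintro ⟨u, hu⟩ hu' ⟨v, hv⟩ hv'
      rw [hAs, Subgroup.mem_subgroupOf] at hu' hv'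
      obtain ⟨a, ha, haA, rfl⟩ := mem_im.mp hu'
      obtain ⟨b, hb, hbA, rfl⟩ := mem_im.mp hv'
      apply Subtype.ext
      change act K ⟨a, ha⟩ * act K ⟨b, hb⟩ = act K ⟨b, hb⟩ * act K ⟨a, ha⟩
      rw [← map_mul, ← map_mul]
      congr 1
      exact Subtype.ext (ElAb.comm hA a haA b hbA)
    · rintro ⟨u, hu⟩ hu'
      rw [hAs, Subgroup.mem_subgroupOf] at hu'
      obtain ⟨a, ha, haA, rfl⟩ := mem_im.mp hu'
      apply Subtype.ext
      change act K ⟨a, ha⟩ ^ p = 1
      rw [← map_pow]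
      have : (⟨a, ha⟩ : normalizer (K : Set G)) ^ p = 1 := Subtype.ext (hA.2 a haA)
      rw [this, map_one]
  have hAscard : Nat.card As = p ^ k := by
    rw [hAs, H1.SZ.card_subgroupOf_of_le (im_mono hAH₀), ← hAk, im]
    have h1 : Nat.card ((A.subgroupOf (normalizer (K : Set G))).map (act K)) =
        Nat.card (A.subgroupOf (normalizer (K : Set G))) := by
      apply Nat.card_congr
      symm
      refine Equiv.ofBijective (((act K).subgroupMap (A.subgroupOf (normalizer (K : Set G))))) ⟨?_, ?_⟩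
      · rw [injective_iff_map_eq_one]
        rintro ⟨⟨a, ha⟩, haA⟩ h
        have h2 : act K ⟨a, ha⟩ = 1 := congrArg Subtype.val h
        have h3 := hinj a haA ha h2
        subst h3; rfl
      · exact (act K).subgroupMap_surjective _
    rw [h1, H1.SZ.card_subgroupOf_of_le hAK]
  have hdelta := hbal Hs hinn As hAsel hAscard
  -- the image of `D` is in `Δ`
  have hDs : (im K D).subgroupOf Hs ≤ signalizerDelta p As := by
    intro u hu
    rw [SigBasic.mem_signalizerDelta]
    rintro ⟨w, hw⟩ hw' hw1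
    rw [hAs, Subgroup.mem_subgroupOf] at hw'
    obtain ⟨a, ha, haA, haw⟩ := mem_im.mp hw'
    change act K ⟨a, ha⟩ = w at haw
    have ha1 : a ≠ 1 := by
      rintro rfl
      apply hw1
      apply Subtype.ext
      change w = 1
      rw [← haw]
      exact map_one (act K)
    obtain ⟨hDac, hDDa, hDaC, hDaK, hADa, hKDa, hZ⟩ := hDa a haA ha1
    set D' := Da a ⊓ H₀ with hD'
    set Ca := K ⊓ centralizer {a} with hCa
    have hCaN : Ca ≤ normalizer (D' : Set G) :=
      le_normalizer_inf hKDa ((inf_le_left.trans hKH₀).trans Subgroup.le_normalizer)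
    set M₁ := Ca ⊔ D' with hM₁
    set Q₁ := ppc p M₁ with hQ₁
    have hDD' : D ≤ D' := le_inf hDDa hDH₀
    have hD'Q : D' ≤ Q₁ := le_ppc le_sup_right (sup_le hCaN Subgroup.le_normalizer)
      (Nat.Coprime.coprime_dvd_left (Subgroup.card_dvd_of_le inf_le_left) hDac)
    have hM₁H : M₁ ≤ H₀ := sup_le (inf_le_left.trans hKH₀) inf_le_right
    have hM₁a : M₁ ≤ centralizer {a} := sup_le inf_le_right (inf_le_left.trans hDaC)
    have hQ₁M : Q₁ ≤ M₁ := ppc_le p M₁
    -- normalizers of `M₁`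
    have hAa : A ≤ centralizer {a} := ElAb.le_centralizer hA haA
    have hAM : A ≤ normalizer (M₁ : Set G) := by
      apply le_normalizer_sup
      · exact le_normalizer_inf hAK (hAa.trans Subgroup.le_normalizer)
      · exact le_normalizer_inf hADa (hAH₀.trans Subgroup.le_normalizer)
    have hDM : D ≤ normalizer (M₁ : Set G) :=
      (hDD'.trans le_sup_right).trans Subgroup.le_normalizer
    have hTM : ∀ x ∈ K, x⁻¹ * (a * x * a⁻¹) ∈ centralizer (K : Set G) →
        ∀ m ∈ M₁, x * m * x⁻¹ ∈ M₁ := by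
      intro x hx hxa m hm
      set z := x⁻¹ * (a * x * a⁻¹) with hz
      have haxK : a * x * a⁻¹ ∈ K := (Subgroup.mem_normalizer_iff.mp ha x).mp hx
      have hzK : z ∈ K := K.mul_mem (K.inv_mem hx) haxK
      have hzc : ∀ y ∈ K, z * y = y * z := fun y hy =>
        (Subgroup.mem_centralizer_iff.mp hxa y hy).symm
      have hax : a * x * a⁻¹ = x * z := by rw [hz]; group
      obtain ⟨c, hc, d, hd, rfl⟩ := (mem_sup_of_le_normalizer' (by
        exact (le_refl D').trans (by
          intro d hd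
          rw [Subgroup.mem_normalizer_iff]
          -- `D'` normalizes `Ca`
          have h1 : d ∈ normalizer (Ca : Set G) :=
            le_normalizer_inf (B := D') (inf_le_left.trans hDaK)
              ((inf_le_left.trans hDaC).trans Subgroup.le_normalizer) hd
          exact Subgroup.mem_normalizer_iff.mp h1))).mp hm
      have hdDa : d ∈ Da a := hd.1
      have hda : d * a = a * d := Subgroup.mem_centralizer_singleton_iff.mp (hDaC hdDa)
      have hdK : d ∈ normalizer (K : Set G) := hDaK hdDa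
      -- `x c x⁻¹ ∈ Ca`
      have hc1 : x * c * x⁻¹ ∈ Ca := by
        refine Subgroup.mem_inf.mpr ⟨K.mul_mem (K.mul_mem hx hc.1) (K.inv_mem hx), ?_⟩
        rw [Subgroup.mem_centralizer_singleton_iff]
        have hca : c * a = a * c := Subgroup.mem_centralizer_singleton_iff.mp hc.2
        have e1 : a * (x * c * x⁻¹) * a⁻¹ = x * c * x⁻¹ := by
          calc a * (x * c * x⁻¹) * a⁻¹ = (a * x * a⁻¹) * (a * c * a⁻¹) * (a * x * a⁻¹)⁻¹ := by group
            _ = (x * z) * (c * a * a⁻¹) * (x * z)⁻¹ := by rw [hax, hca]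
            _ = x * (z * c) * z⁻¹ * x⁻¹ := by group
            _ = x * (c * z) * z⁻¹ * x⁻¹ := by rw [hzc c hc.1]
            _ = x * c * x⁻¹ := by group
        calc x * c * x⁻¹ * a = (a * (x * c * x⁻¹) * a⁻¹) * a := by rw [e1]
          _ = a * (x * c * x⁻¹) := by group
      -- `x d x⁻¹ d⁻¹ ∈ Ca`
      have hd1 : x * (d * x⁻¹ * d⁻¹) ∈ Ca := by
        have hdx : d * x⁻¹ * d⁻¹ ∈ K := (Subgroup.mem_normalizer_iff.mp hdK _).mp (K.inv_mem hx)
        refine Subgroup.mem_inf.mpr ⟨K.mul_mem hx hdx, ?_⟩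
        rw [Subgroup.mem_centralizer_singleton_iff]
        have hzd : z * d = d * z :=
          commute_of_commutator_eq_bot hZ ⟨hzK, hxa⟩ hdDa
        have hdx' : z * (d * x⁻¹ * d⁻¹) = (d * x⁻¹ * d⁻¹) * z := hzc _ hdx
        have e1 : a * (x * (d * x⁻¹ * d⁻¹)) * a⁻¹ = x * (d * x⁻¹ * d⁻¹) := by
          calc a * (x * (d * x⁻¹ * d⁻¹)) * a⁻¹
              = (a * x * a⁻¹) * ((a * d) * x⁻¹ * (a * d)⁻¹) := by group
            _ = (a * x * a⁻¹) * ((d * a) * x⁻¹ * (d * a)⁻¹) := by rw [hda]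
            _ = (a * x * a⁻¹) * (d * (a * x * a⁻¹)⁻¹ * d⁻¹) := by group
            _ = (x * z) * (d * (x * z)⁻¹ * d⁻¹) := by rw [hax]
            _ = x * (z * d) * z⁻¹ * x⁻¹ * d⁻¹ := by group
            _ = x * (d * z) * z⁻¹ * x⁻¹ * d⁻¹ := by rw [hzd]
            _ = x * (d * x⁻¹ * d⁻¹) := by group
        calc x * (d * x⁻¹ * d⁻¹) * a = (a * (x * (d * x⁻¹ * d⁻¹)) * a⁻¹) * a := by rw [e1]
          _ = a * (x * (d * x⁻¹ * d⁻¹)) := by group
      have e2 : x * (c * d) * x⁻¹ = (x * c * x⁻¹) * ((x * (d * x⁻¹ * d⁻¹)) * d) := by group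
      rw [e2]
      exact M₁.mul_mem (Subgroup.mem_sup_left hc1)
        (M₁.mul_mem (Subgroup.mem_sup_left hd1) (Subgroup.mem_sup_right hd))
    -- the elements of `C_{Hs}(w)` normalize `im Q₁`
    have hcent : ∀ y ∈ H₀, ∀ hy : y ∈ normalizer (K : Set G),
        act K ⟨y, hy⟩ * w = w * act K ⟨y, hy⟩ → y ∈ normalizer (Q₁ : Set G) := by
      intro y hyH hy hcomm
      obtain ⟨x, hx, α, hα, δ, hδ, rfl⟩ := hdec y hyH
      have hxN : x ∈ normalizer (K : Set G) := Subgroup.le_normalizer hx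
      have hαδN : α * δ ∈ normalizer (K : Set G) := mul_mem (hAK hα) (hDK hδ)
      have hαδa : α * δ * a = a * (α * δ) := by
        have h1 : α * a = a * α := ElAb.comm hA α hα a haA
        have h2 : a * δ = δ * a := hDA a haA δ hδ
        calc α * δ * a = α * (δ * a) := by group
          _ = α * (a * δ) := by rw [h2]
          _ = (α * a) * δ := by group
          _ = (a * α) * δ := by rw [h1]
          _ = a * (α * δ) := by group
      have hdecomp : act K ⟨x * (α * δ), hy⟩ = act K ⟨x, hxN⟩ * act K ⟨α * δ, hαδN⟩ := by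
        rw [← map_mul]; rfl
      have hαδw : act K ⟨α * δ, hαδN⟩ * w = w * act K ⟨α * δ, hαδN⟩ := by
        rw [← haw, ← map_mul, ← map_mul]
        congr 1
        exact Subtype.ext hαδa
      have hxw : act K ⟨x, hxN⟩ * w = w * act K ⟨x, hxN⟩ := by
        rw [hdecomp] at hcomm
        have h3 : act K ⟨x, hxN⟩ * w * act K ⟨α * δ, hαδN⟩ =
            w * act K ⟨x, hxN⟩ * act K ⟨α * δ, hαδN⟩ := by
          rw [mul_assoc, ← hαδw, ← mul_assoc, hcomm, mul_assoc]
        exact mul_right_cancel h3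
      -- so `x⁻¹ (a x a⁻¹)` is central in `K`
      have hxz : x⁻¹ * (a * x * a⁻¹) ∈ centralizer (K : Set G) := by
        have haxN : x⁻¹ * (a * x * a⁻¹) ∈ normalizer (K : Set G) :=
          mul_mem (inv_mem hxN) (mul_mem (mul_mem ha hxN) (inv_mem ha))
        apply mem_centralizer_of_act hperf haxN
        have h3 : act K ⟨x⁻¹ * (a * x * a⁻¹), haxN⟩ =
            (act K ⟨x, hxN⟩)⁻¹ * (act K ⟨a, ha⟩ * act K ⟨x, hxN⟩ * (act K ⟨a, ha⟩)⁻¹) := by
          rw [← map_inv, ← map_inv, ← map_mul, ← map_mul, ← map_mul]; rfl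
        rw [h3, haw, ← hxw]
        group
      have hxM : x ∈ normalizer (M₁ : Set G) := by
        rw [Subgroup.mem_normalizer_iff_map_conj_eq]
        apply Subgroup.eq_of_le_of_card_ge
        · rintro _ ⟨m, hm, rfl⟩
          exact hTM x hx hxz m hm
        · rw [Subgroup.card_map_of_injective (MulAut.conj x).injective]
      exact normalizer_le_normalizer_ppc p M₁
        (mul_mem hxM (mul_mem (hAM hα) (hDM hδ)))
    -- conclusion
    change u ∈ ppc p (centralizer {(⟨w, hw⟩ : Hs)})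
    have hQ₁N : Q₁ ≤ normalizer (K : Set G) := (hQ₁M.trans hM₁H).trans hH₀N
    have hle : (im K Q₁).subgroupOf Hs ≤ ppc p (centralizer {(⟨w, hw⟩ : Hs)}) := by
      apply le_ppc
      · rintro ⟨v, hv⟩ hv'
        rw [Subgroup.mem_subgroupOf] at hv'
        obtain ⟨y, hy, hyQ, rfl⟩ := mem_im.mp hv'
        rw [Subgroup.mem_centralizer_singleton_iff]
        apply Subtype.ext
        change act K ⟨y, hy⟩ * w = w * act K ⟨y, hy⟩
        rw [← haw, ← map_mul, ← map_mul]
        congr 1
        exact Subtype.ext (Subgroup.mem_centralizer_singleton_iff.mp (hM₁a (hQ₁M hyQ)))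
      · apply le_normalizer_of_conj_mem
        rintro ⟨s, hs⟩ hs' ⟨v, hv⟩ hv'
        rw [Subgroup.mem_subgroupOf] at hv' ⊢
        obtain ⟨q, hq, hqQ, hqv⟩ := mem_im.mp hv'
        obtain ⟨y, hy, hyH, hys⟩ := mem_im.mp hs
        rw [Subgroup.mem_centralizer_singleton_iff] at hs'
        have h3 : s * w = w * s := congrArg Subtype.val hs'
        rw [← hys] at h3
        have h4 := hcent y hyH hy h3
        have h5 : y * q * y⁻¹ ∈ Q₁ := (Subgroup.mem_normalizer_iff.mp h4 q).mp hqQ
        refine mem_im.mpr ⟨y * q * y⁻¹, mul_mem (mul_mem hy hq) (inv_mem hy), h5, ?_⟩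
        change _ = s * v * s⁻¹
        rw [← hys]
        change _ = act K ⟨y, hy⟩ * v * (act K ⟨y, hy⟩)⁻¹
        change act K ⟨q, hq⟩ = v at hqv
        rw [← hqv, ← map_inv, ← map_mul, ← map_mul]
        rfl
      · rw [H1.SZ.card_subgroupOf_of_le (im_mono (hQ₁M.trans hM₁H))]
        exact Nat.Coprime.coprime_dvd_left (card_im_dvd hQ₁N) (card_ppc p M₁)
    apply hle
    rw [Subgroup.mem_subgroupOf] at hu ⊢
    exact im_mono (hDD'.trans hD'Q) hu
  rw [hdelta, le_bot_iff, Subgroup.subgroupOf_eq_bot] at hDs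
  have hbot : im K D = ⊥ := by
    have := hDs.eq_bot
    rwa [inf_eq_left.mpr (im_mono hDH₀)] at this
  rw [Subgroup.commutator_comm, Subgroup.commutator_eq_bot_iff_le_centralizer]
  intro d hd
  apply mem_centralizer_of_act hperf (hDK hd)
  have : act K ⟨d, hDK hd⟩ ∈ im K D := act_mem_im _ hd
  rw [hbot] at this
  exact this

theorem pPrimeCore_top {X : Type*} [Group X] [Finite X] (hO : pPrimeCore p X = ⊥) :
    pPrimeCore p (⊤ : Subgroup X) = ⊥ := by
  have h := H1.Cores.map_equiv_pPrimeCore p (Subgroup.topEquiv (G := X))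
  rw [hO] at h
  exact (Subgroup.map_eq_bot_iff_of_injective _ (Subgroup.topEquiv (G := X)).injective).mp h

theorem hyp_centralizer {X : Type*} [Group X] [Finite X] (hO : pPrimeCore p X = ⊥) {a : X}
    (ha : a ^ p = 1) : Hyp p ⊤ (zpowers a) (centralizerPPrimeCore p a) := by
  have hcent : centralizer ((zpowers a : Subgroup X) : Set X) = centralizer ({a} : Set X) := by
    rw [Subgroup.zpowers_eq_closure, Subgroup.centralizer_closure]
  have hle : centralizerPPrimeCore p a ≤ centralizer ({a} : Set X) := Subgroup.map_subtype_le _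
  refine ⟨pPrimeCore_top hO, ?_, card_ppc p _, ?_, ?_, ?_, ?_⟩
  · rw [isPGroup_iff_pow_pow_eq_one]
    rintro ⟨y, hy⟩
    obtain ⟨m, rfl⟩ := Subgroup.mem_zpowers_iff.mp hy
    refine ⟨1, Subtype.ext ?_⟩
    change (a ^ m) ^ p ^ 1 = 1
    rw [pow_one, ← zpow_natCast, ← zpow_mul, mul_comm, zpow_mul, zpow_natCast, ha, one_zpow]
  · intro x _
    rw [Subgroup.mem_normalizer_iff]; simp
  · intro x _
    rw [Subgroup.mem_normalizer_iff]; simp
  · intro r hr d hd
    have h1 : d ∈ centralizer ((zpowers a : Subgroup X) : Set X) := by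
      rw [hcent]; exact hle hd
    exact Subgroup.mem_centralizer_iff.mp h1 r hr
  · rw [hcent]
    exact inf_le_right.trans (le_normalizer_ppc p _)

theorem delta_eq_bot {X : Type*} [Group X] [Finite X] {k : ℕ} (hO : pPrimeCore p X = ⊥)
    (hk : 1 ≤ k)
    (hcomp : ∀ K : Subgroup X, IsComponent K → IsLocallyKBalanced p k (K ⧸ center K))
    {A : Subgroup X} (hA : IsElementaryAbelian p A) (hAk : Nat.card A = p ^ k) :
    signalizerDelta p A = ⊥ := by
  obtain ⟨a₀, ha₀, ha₀1⟩ := ElAb.exists_ne_one hk hAk.ge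
  set D := signalizerDelta p A with hD
  have hDa : ∀ a ∈ A, a ≠ 1 → D ≤ centralizerPPrimeCore p a := fun a ha h1 x hx =>
    SigBasic.mem_signalizerDelta.mp hx a ha h1
  have hDc : (Nat.card D).Coprime p :=
    Nat.Coprime.coprime_dvd_left (Subgroup.card_dvd_of_le (hDa a₀ ha₀ ha₀1)) (card_ppc p _)
  have hDA : ∀ a ∈ A, ∀ d ∈ D, a * d = d * a := by
    intro a ha d hd
    by_cases h1 : a = 1
    · simp [h1]
    · exact (Subgroup.mem_centralizer_singleton_iff.mp
        (SigBasic.centralizerPPrimeCore_le p a (hDa a ha h1 hd))).symm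
  have hyp : Hyp p ⊤ A D := by
    refine ⟨pPrimeCore_top hO, ElAb.isPGroup hA, hDc, ?_, ?_, hDA, ?_⟩
    · intro x _
      rw [Subgroup.mem_normalizer_iff]; simp
    · intro x _
      rw [Subgroup.mem_normalizer_iff]; simp
    · rw [top_inf_eq]
      apply le_normalizer_of_conj_mem
      intro c hc d hd
      rw [hD, SigBasic.mem_signalizerDelta] at hd ⊢
      intro a ha h1
      have h2 : c ∈ centralizer ({a} : Set X) := by
        rw [Subgroup.mem_centralizer_singleton_iff]
        exact (Subgroup.mem_centralizer_iff.mp hc a ha).symm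
      exact conj_mem_of_le_normalizer (le_normalizer_ppc p (centralizer ({a} : Set X))) h2
        (hd a ha h1)
  have hya : ∀ a ∈ A, Hyp p ⊤ (zpowers a) (centralizerPPrimeCore p a) := fun a ha =>
    hyp_centralizer hO (hA.2 a ha)
  apply eq_bot_of_centralizes (pPrimeCore_top hO) le_top hDc hyp.pc_comm
  intro K hK
  -- all elements of `A` normalize `K`
  by_cases hmv : ∃ a ∈ A, MulAut.conj a • K ≠ K
  · obtain ⟨a, ha, hmv⟩ := hmv
    have h1 : a ≠ 1 := by
      rintro rfl
      exact hmv (by rw [map_one, one_smul])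
    exact commutator_eq_bot_mono ((hya a ha).comm_of_moved (hA.2 a ha) hK hmv) le_rfl
      (hDa a ha h1)
  push Not at hmv
  have hAK : A ≤ normalizer (K : Set X) := fun a ha =>
    H1.SZ.mem_normalizer_of_conj_smul_eq (hmv a ha)
  by_cases hf : A ⊓ centralizer (K : Set X) = ⊥
  · refine comm_of_locallyKBalanced hK.perfect hA hAk hAK hf
      (fun a => centralizerPPrimeCore p a) ?_ (hyp.le_normalizer_comp hK) hDA
      (hcomp K (compIn_top_iff.mp hK))
    intro a ha h1
    have hle : centralizerPPrimeCore p a ≤ centralizer ({a} : Set X) := Subgroup.map_subtype_le _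
    have hn : centralizer ({a} : Set X) ≤ normalizer (centralizerPPrimeCore p a : Set X) :=
      le_normalizer_ppc p _
    refine ⟨card_ppc p _, hDa a ha h1, hle, (hya a ha).le_normalizer_comp hK,
      (ElAb.le_centralizer hA ha).trans hn, inf_le_right.trans hn, ?_⟩
    refine commutator_eq_bot_mono (hya a ha).pc_comm ?_ le_rfl
    -- `Z(K) ≤ O_p(X)`
    refine le_pc_of_central (pPrimeCore_top hO) (inf_le_left.trans hK.le_layer) fun M hM => ?_
    rcases hK.eq_or hM with h | h
    · rw [← h, Subgroup.commutator_eq_bot_iff_le_centralizer]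
      exact inf_le_right
    · exact commutator_eq_bot_mono h inf_le_left le_rfl
  · obtain ⟨a, ha, h1⟩ := (A ⊓ centralizer (K : Set X)).bot_or_exists_ne_one.resolve_left hf
    have haA : a ∈ A := ha.1
    refine commutator_eq_bot_mono ((hya a haA).comm_of_centralized hK ?_) le_rfl (hDa a haA h1)
    rw [Subgroup.le_centralizer_iff, zpowers_le]
    exact ha.2

/-- S1298 -/
theorem isKBalanced_of_locally {G : Type*} [Group G] [Finite G] {k : ℕ} (hk : 1 ≤ k)
    (h : ∀ x : G, orderOf x = p → ∀ K : Subgroup ((centralizer ({x} : Set G)) ⧸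
      pPrimeCore p (centralizer ({x} : Set G))), IsComponent K →
      IsLocallyKBalanced p k (K ⧸ center K)) : IsKBalanced p k G := by
  intro A hA hAk b hb hcomm
  set C := centralizer ({b} : Set G) with hC
  set O := pPrimeCore p C with hO
  have hAC : A ≤ C := fun a ha => by
    rw [hC, Subgroup.mem_centralizer_singleton_iff]; exact hcomm a ha
  have hOcop : (Nat.card O).Coprime p := H1.Cores.coprime_card_pPrimeCore p
  have hOp : ¬ p ∣ Nat.card O := (Nat.Prime.coprime_iff_not_dvd hp.out).mp hOcop.symm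
  set A' := A.subgroupOf C with hA'
  have hA'el : IsElementaryAbelian p A' := ElAb.of_comm
    (fun a ha b hb => Subtype.ext (ElAb.comm hA a ha b hb))
    (fun a ha => Subtype.ext (hA.2 a ha))
  set Ab := A'.map (QuotientGroup.mk' O) with hAb
  have hAbel : IsElementaryAbelian p Ab := by
    apply ElAb.of_comm
    · rintro _ ⟨a, ha, rfl⟩ _ ⟨b, hb, rfl⟩
      rw [← map_mul, ← map_mul, ElAb.comm hA'el a ha b hb]
    · rintro _ ⟨a, ha, rfl⟩
      rw [← map_pow, hA'el.2 a ha, map_one]
  have hdis : A' ⊓ O = ⊥ := H26.LocalFitting.inf_eq_bot_of_coprime (ElAb.isPGroup hA'el) hOcop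
  have hAbk : Nat.card Ab = p ^ k := by
    rw [hAb, H1.Hall.card_map_mk_of_disjoint hdis, H1.SZ.card_subgroupOf_of_le hAC, hAk]
  have hdelta := delta_eq_bot (X := C ⧸ O) (H1.Cores.pPrimeCore_quotient_pPrimeCore p) hk
    (h b hb) hAbel hAbk
  -- the image of `Δ_G(A) ∩ C` lies in `Δ`
  have hle : ((signalizerDelta p A ⊓ C).subgroupOf C).map (QuotientGroup.mk' O) ≤
      signalizerDelta p Ab := by
    rintro _ ⟨x, hx, rfl⟩
    rw [SetLike.mem_coe, Subgroup.mem_subgroupOf] at hx
    rw [SigBasic.mem_signalizerDelta]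
    rintro _ ⟨a, ha, rfl⟩ ha1
    have ha1' : (a : G) ≠ 1 := by
      intro h1
      apply ha1
      have : a = 1 := Subtype.ext h1
      rw [this, map_one]
    have hxa : (x : G) ∈ centralizerPPrimeCore p (a : G) :=
      SigBasic.mem_signalizerDelta.mp hx.1 _ ha ha1'
    set E := (centralizerPPrimeCore p (a : G)).subgroupOf C with hE
    have hEc : E ≤ centralizer ({a} : Set C) := by
      intro y hy
      rw [hE, Subgroup.mem_subgroupOf] at hy
      rw [Subgroup.mem_centralizer_singleton_iff]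
      apply Subtype.ext
      exact Subgroup.mem_centralizer_singleton_iff.mp (SigBasic.centralizerPPrimeCore_le p _ hy)
    have hCE : centralizer ({a} : Set C) ≤ normalizer (E : Set C) := by
      apply le_normalizer_of_conj_mem
      intro c hc y hy
      rw [hE, Subgroup.mem_subgroupOf] at hy ⊢
      have hc' : (c : G) ∈ centralizer ({(a : G)} : Set G) := by
        rw [Subgroup.mem_centralizer_singleton_iff] at hc ⊢
        exact congrArg Subtype.val hc
      exact conj_mem_of_le_normalizer (le_normalizer_ppc p (centralizer ({(a : G)} : Set G)))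
        hc' hy
    have hEcard : (Nat.card E).Coprime p := by
      have h1 : Nat.card E ∣ Nat.card (centralizerPPrimeCore p (a : G)) := by
        rw [hE]
        have h2 : Nat.card ((centralizerPPrimeCore p (a : G)).subgroupOf C) =
            Nat.card ((centralizerPPrimeCore p (a : G)) ⊓ C : Subgroup G) := by
          rw [← Subgroup.subgroupOf_map_subtype, Subgroup.card_map_of_injective C.subtype_injective]
        rw [h2]
        exact Subgroup.card_dvd_of_le inf_le_left
      exact Nat.Coprime.coprime_dvd_left h1 (card_ppc p _)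
    have hcentq : centralizer ({QuotientGroup.mk' O a} : Set (C ⧸ O)) =
        (centralizer ({a} : Set C)).map (QuotientGroup.mk' O) := by
      have h1 := H26.PxQ.map_centralizer_eq (p := p) (A := zpowers a) (N := O)
        ((ElAb.isPGroup hA'el).to_le (by rw [zpowers_le]; exact ha)) hOp
      have e1 : centralizer ((zpowers a : Subgroup C) : Set C) = centralizer ({a} : Set C) := by
        rw [Subgroup.zpowers_eq_closure, Subgroup.centralizer_closure]
      have e2 : centralizer (((zpowers a).map (QuotientGroup.mk' O) : Subgroup (C ⧸ O)) :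
          Set (C ⧸ O)) = centralizer ({QuotientGroup.mk' O a} : Set (C ⧸ O)) := by
        rw [MonoidHom.map_zpowers, Subgroup.zpowers_eq_closure, Subgroup.centralizer_closure]
      rw [e1, e2] at h1
      exact h1
    have hfin : E.map (QuotientGroup.mk' O) ≤
        ppc p (centralizer ({QuotientGroup.mk' O a} : Set (C ⧸ O))) := by
      apply le_ppc
      · rw [hcentq]; exact Subgroup.map_mono hEc
      · rw [hcentq]
        apply le_normalizer_of_conj_mem
        rintro _ ⟨c, hc, rfl⟩ _ ⟨y, hy, rfl⟩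
        exact ⟨c * y * c⁻¹, conj_mem_of_le_normalizer hCE hc hy, by simp⟩
      · exact Nat.Coprime.coprime_dvd_left (Subgroup.card_map_dvd _ _) hEcard
    exact hfin ⟨x, by rw [SetLike.mem_coe, hE, Subgroup.mem_subgroupOf]; exact hxa, rfl⟩
  rw [hdelta, le_bot_iff, Subgroup.map_eq_bot_iff, QuotientGroup.ker_mk'] at hle
  have h2 := Subgroup.map_mono (f := C.subtype) hle
  rwa [Subgroup.map_subgroupOf_eq_of_le inf_le_right] at h2

end H27.KBal
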